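import Cfsg.Agent.H41.J2TC.Kw.RTab

set_option autoImplicit false
set_option linter.all false
set_option Elab.async false

namespace Cfsg.Agent.H41.J2P

open Cfsg.Agent.H35

theorem tkw_rchk_80 : allR tkw_rf 63926 9 (80 * 2 ^ 9) = true := by decide +kernel
theorem tkw_rchk_81 : allR tkw_rf 63926 9 (81 * 2 ^ 9) = true := by decide +kernel
theorem tkw_rchk_82 : allR tkw_rf 63926 9 (82 * 2 ^ 9) = true := by decide +kernel
theorem tkw_rchk_83 : allR tkw_rf 63926 9 (83 * 2 ^ 9) = true := by decide +kernel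
theorem tkw_rchk_84 : allR tkw_rf 63926 9 (84 * 2 ^ 9) = true := by decide +kernel
theorem tkw_rchk_85 : allR tkw_rf 63926 9 (85 * 2 ^ 9) = true := by decide +kernel
theorem tkw_rchk_86 : allR tkw_rf 63926 9 (86 * 2 ^ 9) = true := by decide +kernel
theorem tkw_rchk_87 : allR tkw_rf 63926 9 (87 * 2 ^ 9) = true := by decide +kernel
theorem tkw_rchk_88 : allR tkw_rf 63926 9 (88 * 2 ^ 9) = true := by decide +kernel
theorem tkw_rchk_89 : allR tkw_rf 63926 9 (89 * 2 ^ 9) = true := by decide +kernel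
theorem tkw_rchk_90 : allR tkw_rf 63926 9 (90 * 2 ^ 9) = true := by decide +kernel
theorem tkw_rchk_91 : allR tkw_rf 63926 9 (91 * 2 ^ 9) = true := by decide +kernel
theorem tkw_rchk_92 : allR tkw_rf 63926 9 (92 * 2 ^ 9) = true := by decide +kernel
theorem tkw_rchk_93 : allR tkw_rf 63926 9 (93 * 2 ^ 9) = true := by decide +kernel
theorem tkw_rchk_94 : allR tkw_rf 63926 9 (94 * 2 ^ 9) = true := by decide +kernel
theorem tkw_rchk_95 : allR tkw_rf 63926 9 (95 * 2 ^ 9) = true := by decide +kernel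
theorem tkw_rchk_96 : allR tkw_rf 63926 9 (96 * 2 ^ 9) = true := by decide +kernel
theorem tkw_rchk_97 : allR tkw_rf 63926 9 (97 * 2 ^ 9) = true := by decide +kernel
theorem tkw_rchk_98 : allR tkw_rf 63926 9 (98 * 2 ^ 9) = true := by decide +kernel
theorem tkw_rchk_99 : allR tkw_rf 63926 9 (99 * 2 ^ 9) = true := by decide +kernel

end Cfsg.Agent.H41.J2P
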