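import Cfsg.Agent.H41.J2TC.Kw.RTab

set_option autoImplicit false
set_option linter.all false
set_option Elab.async false

namespace Cfsg.Agent.H41.J2P

open Cfsg.Agent.H35

theorem tkw_rchk_100 : allR tkw_rf 63926 9 (100 * 2 ^ 9) = true := by decide +kernel
theorem tkw_rchk_101 : allR tkw_rf 63926 9 (101 * 2 ^ 9) = true := by decide +kernel
theorem tkw_rchk_102 : allR tkw_rf 63926 9 (102 * 2 ^ 9) = true := by decide +kernel
theorem tkw_rchk_103 : allR tkw_rf 63926 9 (103 * 2 ^ 9) = true := by decide +kernel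
theorem tkw_rchk_104 : allR tkw_rf 63926 9 (104 * 2 ^ 9) = true := by decide +kernel
theorem tkw_rchk_105 : allR tkw_rf 63926 9 (105 * 2 ^ 9) = true := by decide +kernel
theorem tkw_rchk_106 : allR tkw_rf 63926 9 (106 * 2 ^ 9) = true := by decide +kernel
theorem tkw_rchk_107 : allR tkw_rf 63926 9 (107 * 2 ^ 9) = true := by decide +kernel
theorem tkw_rchk_108 : allR tkw_rf 63926 9 (108 * 2 ^ 9) = true := by decide +kernel
theorem tkw_rchk_109 : allR tkw_rf 63926 9 (109 * 2 ^ 9) = true := by decide +kernel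
theorem tkw_rchk_110 : allR tkw_rf 63926 9 (110 * 2 ^ 9) = true := by decide +kernel
theorem tkw_rchk_111 : allR tkw_rf 63926 9 (111 * 2 ^ 9) = true := by decide +kernel
theorem tkw_rchk_112 : allR tkw_rf 63926 9 (112 * 2 ^ 9) = true := by decide +kernel
theorem tkw_rchk_113 : allR tkw_rf 63926 9 (113 * 2 ^ 9) = true := by decide +kernel
theorem tkw_rchk_114 : allR tkw_rf 63926 9 (114 * 2 ^ 9) = true := by decide +kernel
theorem tkw_rchk_115 : allR tkw_rf 63926 9 (115 * 2 ^ 9) = true := by decide +kernel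
theorem tkw_rchk_116 : allR tkw_rf 63926 9 (116 * 2 ^ 9) = true := by decide +kernel
theorem tkw_rchk_117 : allR tkw_rf 63926 9 (117 * 2 ^ 9) = true := by decide +kernel
theorem tkw_rchk_118 : allR tkw_rf 63926 9 (118 * 2 ^ 9) = true := by decide +kernel
theorem tkw_rchk_119 : allR tkw_rf 63926 9 (119 * 2 ^ 9) = true := by decide +kernel

end Cfsg.Agent.H41.J2P
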