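import Cfsg.Agent.H41.J2TC.Kw.RTab

set_option autoImplicit false
set_option linter.all false
set_option Elab.async false

namespace Cfsg.Agent.H41.J2P

open Cfsg.Agent.H35

theorem tkw_rchk_120 : allR tkw_rf 63926 9 (120 * 2 ^ 9) = true := by decide +kernel
theorem tkw_rchk_121 : allR tkw_rf 63926 9 (121 * 2 ^ 9) = true := by decide +kernel
theorem tkw_rchk_122 : allR tkw_rf 63926 9 (122 * 2 ^ 9) = true := by decide +kernel
theorem tkw_rchk_123 : allR tkw_rf 63926 9 (123 * 2 ^ 9) = true := by decide +kernel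
theorem tkw_rchk_124 : allR tkw_rf 63926 9 (124 * 2 ^ 9) = true := by decide +kernel

end Cfsg.Agent.H41.J2P
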