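import Cfsg.Agent.H41.J2TC.Kw.RTab0
import Cfsg.Agent.H41.J2TC.Kw.RTab1

set_option autoImplicit false
set_option linter.all false

namespace Cfsg.Agent.H41.J2P

open Cfsg.Agent.H35

noncomputable def tkw_rrowT : ℕ → ℕ := (nd 32000 (nd 15872 (nd 7936 (nd 3840 (nd 1792 (nd 768 (nd 256 tkw_rrowT_c0 (nd 512 tkw_rrowT_c1 tkw_rrowT_c2)) (nd 1280 (nd 1024 tkw_rrowT_c3 tkw_rrowT_c4) (nd 1536 tkw_rrowT_c5 tkw_rrowT_c6))) (nd 2816 (nd 2304 (nd 2048 tkw_rrowT_c7 tkw_rrowT_c8) (nd 2560 tkw_rrowT_c9 tkw_rrowT_c10)) (nd 3328 (nd 3072 tkw_rrowT_c11 tkw_rrowT_c12) (nd 3584 tkw_rrowT_c13 tkw_rrowT_c14)))) (nd 5888 (nd 4864 (nd 4352 (nd 4096 tkw_rrowT_c15 tkw_rrowT_c16) (nd 4608 tkw_rrowT_c17 tkw_rrowT_c18)) (nd 5376 (nd 5120 tkw_rrowT_c19 tkw_rrowT_c20) (nd 5632 tkw_rrowT_c21 tkw_rrowT_c22))) (nd 6912 (nd 6400 (nd 6144 tkw_rrowT_c23 tkw_rrowT_c24)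 (nd 6656 tkw_rrowT_c25 tkw_rrowT_c26)) (nd 7424 (nd 7168 tkw_rrowT_c27 tkw_rrowT_c28) (nd 7680 tkw_rrowT_c29 tkw_rrowT_c30))))) (nd 11776 (nd 9728 (nd 8704 (nd 8192 tkw_rrowT_c31 (nd 8448 tkw_rrowT_c32 tkw_rrowT_c33)) (nd 9216 (nd 8960 tkw_rrowT_c34 tkw_rrowT_c35) (nd 9472 tkw_rrowT_c36 tkw_rrowT_c37))) (nd 10752 (nd 10240 (nd 9984 tkw_rrowT_c38 tkw_rrowT_c39) (nd 10496 tkw_rrowT_c40 tkw_rrowT_c41)) (nd 11264 (nd 11008 tkw_rrowT_c42 tkw_rrowT_c43) (nd 11520 tkw_rrowT_c44 tkw_rrowT_c45)))) (nd 13824 (nd 12800 (nd 12288 (nd 12032 tkw_rrowT_c46 tkw_rrowT_c47) (nd 12544 tkw_rrowT_c48 tkw_rrowT_c49)) (nd 13312 (nd 13056 tkw_rrowT_c50 tkw_rrowT_c51) (nd 13568 tkw_rrowT_c52 tkw_rrowT_c53))) (nd 14848 (nd 14336 (nd 14080 tkw_rrowT_c54 tkw_rrowT_c55) (nd 14592 tkw_rrowT_c56 tkw_rrowT_c57)) (nd 15360 (nd 15104 tkw_rrowT_c58 tkw_rrowT_c59)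 (nd 15616 tkw_rrowT_c60 tkw_rrowT_c61)))))) (nd 23808 (nd 19712 (nd 17664 (nd 16640 (nd 16128 tkw_rrowT_c62 (nd 16384 tkw_rrowT_c63 tkw_rrowT_c64)) (nd 17152 (nd 16896 tkw_rrowT_c65 tkw_rrowT_c66) (nd 17408 tkw_rrowT_c67 tkw_rrowT_c68))) (nd 18688 (nd 18176 (nd 17920 tkw_rrowT_c69 tkw_rrowT_c70) (nd 18432 tkw_rrowT_c71 tkw_rrowT_c72)) (nd 19200 (nd 18944 tkw_rrowT_c73 tkw_rrowT_c74) (nd 19456 tkw_rrowT_c75 tkw_rrowT_c76)))) (nd 21760 (nd 20736 (nd 20224 (nd 19968 tkw_rrowT_c77 tkw_rrowT_c78) (nd 20480 tkw_rrowT_c79 tkw_rrowT_c80)) (nd 21248 (nd 20992 tkw_rrowT_c81 tkw_rrowT_c82) (nd 21504 tkw_rrowT_c83 tkw_rrowT_c84))) (nd 22784 (nd 22272 (nd 22016 tkw_rrowT_c85 tkw_rrowT_c86) (nd 22528 tkw_rrowT_c87 tkw_rrowT_c88)) (nd 23296 (nd 23040 tkw_rrowT_c89 tkw_rrowT_c90) (nd 23552 tkw_rrowT_c91 tkw_rrowT_c92))))) (nd 27904 (nd 25856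 (nd 24832 (nd 24320 (nd 24064 tkw_rrowT_c93 tkw_rrowT_c94) (nd 24576 tkw_rrowT_c95 tkw_rrowT_c96)) (nd 25344 (nd 25088 tkw_rrowT_c97 tkw_rrowT_c98) (nd 25600 tkw_rrowT_c99 tkw_rrowT_c100))) (nd 26880 (nd 26368 (nd 26112 tkw_rrowT_c101 tkw_rrowT_c102) (nd 26624 tkw_rrowT_c103 tkw_rrowT_c104)) (nd 27392 (nd 27136 tkw_rrowT_c105 tkw_rrowT_c106) (nd 27648 tkw_rrowT_c107 tkw_rrowT_c108)))) (nd 29952 (nd 28928 (nd 28416 (nd 28160 tkw_rrowT_c109 tkw_rrowT_c110) (nd 28672 tkw_rrowT_c111 tkw_rrowT_c112)) (nd 29440 (nd 29184 tkw_rrowT_c113 tkw_rrowT_c114) (nd 29696 tkw_rrowT_c115 tkw_rrowT_c116))) (nd 30976 (nd 30464 (nd 30208 tkw_rrowT_c117 tkw_rrowT_c118) (nd 30720 tkw_rrowT_c119 tkw_rrowT_c120)) (nd 31488 (nd 31232 tkw_rrowT_c121 tkw_rrowT_c122) (nd 31744 tkw_rrowT_c123 tkw_rrowT_c124))))))) (nd 47872 (nd 39936 (nd 35840 (nd 33792 (nd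 32768 (nd 32256 tkw_rrowT_c125 (nd 32512 tkw_rrowT_c126 tkw_rrowT_c127)) (nd 33280 (nd 33024 tkw_rrowT_c128 tkw_rrowT_c129) (nd 33536 tkw_rrowT_c130 tkw_rrowT_c131))) (nd 34816 (nd 34304 (nd 34048 tkw_rrowT_c132 tkw_rrowT_c133) (nd 34560 tkw_rrowT_c134 tkw_rrowT_c135)) (nd 35328 (nd 35072 tkw_rrowT_c136 tkw_rrowT_c137) (nd 35584 tkw_rrowT_c138 tkw_rrowT_c139)))) (nd 37888 (nd 36864 (nd 36352 (nd 36096 tkw_rrowT_c140 tkw_rrowT_c141) (nd 36608 tkw_rrowT_c142 tkw_rrowT_c143)) (nd 37376 (nd 37120 tkw_rrowT_c144 tkw_rrowT_c145) (nd 37632 tkw_rrowT_c146 tkw_rrowT_c147))) (nd 38912 (nd 38400 (nd 38144 tkw_rrowT_c148 tkw_rrowT_c149) (nd 38656 tkw_rrowT_c150 tkw_rrowT_c151)) (nd 39424 (nd 39168 tkw_rrowT_c152 tkw_rrowT_c153) (nd 39680 tkw_rrowT_c154 tkw_rrowT_c155))))) (nd 43776 (nd 41728 (nd 40704 (nd 40192 tkw_rrowT_c156 (nd 40448 tkw_rrowT_c157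 tkw_rrowT_c158)) (nd 41216 (nd 40960 tkw_rrowT_c159 tkw_rrowT_c160) (nd 41472 tkw_rrowT_c161 tkw_rrowT_c162))) (nd 42752 (nd 42240 (nd 41984 tkw_rrowT_c163 tkw_rrowT_c164) (nd 42496 tkw_rrowT_c165 tkw_rrowT_c166)) (nd 43264 (nd 43008 tkw_rrowT_c167 tkw_rrowT_c168) (nd 43520 tkw_rrowT_c169 tkw_rrowT_c170)))) (nd 45824 (nd 44800 (nd 44288 (nd 44032 tkw_rrowT_c171 tkw_rrowT_c172) (nd 44544 tkw_rrowT_c173 tkw_rrowT_c174)) (nd 45312 (nd 45056 tkw_rrowT_c175 tkw_rrowT_c176) (nd 45568 tkw_rrowT_c177 tkw_rrowT_c178))) (nd 46848 (nd 46336 (nd 46080 tkw_rrowT_c179 tkw_rrowT_c180) (nd 46592 tkw_rrowT_c181 tkw_rrowT_c182)) (nd 47360 (nd 47104 tkw_rrowT_c183 tkw_rrowT_c184) (nd 47616 tkw_rrowT_c185 tkw_rrowT_c186)))))) (nd 55808 (nd 51712 (nd 49664 (nd 48640 (nd 48128 tkw_rrowT_c187 (nd 48384 tkw_rrowT_c188 tkw_rrowT_c189)) (nd 49152 (nd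 48896 tkw_rrowT_c190 tkw_rrowT_c191) (nd 49408 tkw_rrowT_c192 tkw_rrowT_c193))) (nd 50688 (nd 50176 (nd 49920 tkw_rrowT_c194 tkw_rrowT_c195) (nd 50432 tkw_rrowT_c196 tkw_rrowT_c197)) (nd 51200 (nd 50944 tkw_rrowT_c198 tkw_rrowT_c199) (nd 51456 tkw_rrowT_c200 tkw_rrowT_c201)))) (nd 53760 (nd 52736 (nd 52224 (nd 51968 tkw_rrowT_c202 tkw_rrowT_c203) (nd 52480 tkw_rrowT_c204 tkw_rrowT_c205)) (nd 53248 (nd 52992 tkw_rrowT_c206 tkw_rrowT_c207) (nd 53504 tkw_rrowT_c208 tkw_rrowT_c209))) (nd 54784 (nd 54272 (nd 54016 tkw_rrowT_c210 tkw_rrowT_c211) (nd 54528 tkw_rrowT_c212 tkw_rrowT_c213)) (nd 55296 (nd 55040 tkw_rrowT_c214 tkw_rrowT_c215) (nd 55552 tkw_rrowT_c216 tkw_rrowT_c217))))) (nd 59904 (nd 57856 (nd 56832 (nd 56320 (nd 56064 tkw_rrowT_c218 tkw_rrowT_c219) (nd 56576 tkw_rrowT_c220 tkw_rrowT_c221)) (nd 57344 (nd 57088 tkw_rrowT_c222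 tkw_rrowT_c223) (nd 57600 tkw_rrowT_c224 tkw_rrowT_c225))) (nd 58880 (nd 58368 (nd 58112 tkw_rrowT_c226 tkw_rrowT_c227) (nd 58624 tkw_rrowT_c228 tkw_rrowT_c229)) (nd 59392 (nd 59136 tkw_rrowT_c230 tkw_rrowT_c231) (nd 59648 tkw_rrowT_c232 tkw_rrowT_c233)))) (nd 61952 (nd 60928 (nd 60416 (nd 60160 tkw_rrowT_c234 tkw_rrowT_c235) (nd 60672 tkw_rrowT_c236 tkw_rrowT_c237)) (nd 61440 (nd 61184 tkw_rrowT_c238 tkw_rrowT_c239) (nd 61696 tkw_rrowT_c240 tkw_rrowT_c241))) (nd 62976 (nd 62464 (nd 62208 tkw_rrowT_c242 tkw_rrowT_c243) (nd 62720 tkw_rrowT_c244 tkw_rrowT_c245)) (nd 63488 (nd 63232 tkw_rrowT_c246 tkw_rrowT_c247) (nd 63744 tkw_rrowT_c248 tkw_rrowT_c249))))))))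

noncomputable def tkw_circT_c0 : ℕ → List Gen := (nd 32 (nd 16 (nd 8 (nd 4 (nd 2 (nd 1 (lf [.e, .b, .e, .b, .e, .b]) (lf [.a, .d, .e, .d, .a, .d, .a, .e, .a, .d])) (nd 3 (lf [.a, .a]) (lf [.d, .e, .a, .e, .d, .e, .d, .a, .a, .a, .d, .e]))) (nd 6 (nd 5 (lf [.a, .e, .d, .e, .d, .a, .a, .a, .d, .e, .d, .e]) (lf [.b, .e, .d, .e, .d, .a, .b, .a, .d, .e, .d, .e])) (nd 7 (lf [.c, .e, .d, .e, .d, .a, .c, .a, .d, .e, .d, .e]) (lf [.d, .e, .d, .e, .d, .e, .d, .a, .d, .a, .d, .e])))) (nd 12 (nd 10 (nd 9 (lf [.e, .d, .e, .e, .e, .d, .e, .d, .a, .e, .a, .d]) (lf [.a, .b, .a, .b, .a, .b])) (nd 11 (lf [.a, .d, .b, .d, .a, .d, .a, .b, .a, .d]) (lf [.c, .b, .c, .b, .c, .b]))) (nd 14 (nd 13 (lf [.c, .c]) (lf [.d, .b, .d, .b, .d, .b])) (nd 15 (lf [.d, .d]) (lf [.e, .d, .e, .b, .e, .d, .e, .d, .a, .b, .a, .d]))))) (nd 24 (nd 20 (nd 18 (nd 17 (lf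 [.e, .e]) (lf [.d, .a, .d, .a, .d, .e, .d, .e, .d, .e, .d, .e])) (nd 19 (lf [.a, .c, .a, .c, .e, .c, .a, .c, .a, .c, .a, .c, .a, .e, .a, .c, .a, .c]) (lf [.a, .d, .c, .d, .a, .d, .a, .c, .a, .d]))) (nd 22 (nd 21 (lf [.d, .c, .d, .e, .d, .c, .d, .c, .d, .c, .e, .c, .d, .c]) (lf [.a, .c, .e, .c, .e, .c, .e, .a, .e, .c, .e, .c, .e, .c])) (nd 23 (lf [.b, .a, .b, .a, .b, .a]) (lf [.d, .a, .d, .b, .d, .a, .d, .a, .b, .a])))) (nd 28 (nd 26 (nd 25 (lf [.e, .d, .e, .d, .a, .a, .a, .d, .e, .d, .e, .a]) (lf [.d, .c, .d, .b, .d, .c, .d, .c, .d, .c, .b, .c, .d, .c])) (nd 27 (lf [.b, .b]) (lf [.d, .e, .c, .e, .d, .e, .d, .a, .c, .a, .d, .e]))) (nd 30 (nd 29 (lf [.e, .d, .e, .d, .e, .d, .a, .d, .a, .d, .e, .d]) (lf [.d, .e, .d, .e, .e, .e, .d, .e, .d, .a, .e, .a])) (nd 31 (lf [.a, .e, .a, .d, .e, .d, .e, .e, .e, .d, .e, .d]) (lf [.d, .a, .d,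 .c, .d, .a, .d, .a, .c, .a])))))) (nd 48 (nd 40 (nd 36 (nd 34 (nd 33 (lf [.e, .c, .e, .d, .e, .c, .e, .c, .e, .c, .d, .c, .e, .c]) (lf [.c, .e, .c, .e, .d, .e, .c, .e, .c, .e, .c, .d, .c, .e])) (nd 35 (lf [.a, .c, .e, .a, .c, .e, .a, .e, .c, .a, .e, .c, .a, .e, .c, .a, .a, .a, .c, .e]) (lf [.e, .d, .e, .a, .e, .d, .e, .d, .a, .a, .a, .d]))) (nd 38 (nd 37 (lf [.c, .e, .c, .e, .c, .e, .d, .e, .c, .e, .c, .e, .c, .d]) (lf [.c, .d, .e, .d, .c, .d, .c, .d, .c, .e, .c, .d, .c, .d])) (nd 39 (lf [.a, .c, .e, .a, .c, .e, .d, .e, .c, .a, .e, .c, .a, .e, .c, .a, .d, .a, .c, .e]) (lf [.a, .e, .c, .e, .c, .e, .c, .a, .c, .e, .c, .e, .c, .e])))) (nd 44 (nd 42 (nd 41 (lf [.b, .e, .c, .e, .c, .e, .c, .b, .c, .e, .c, .e, .c, .e]) (lf [.c, .e, .c, .e, .c, .e, .c, .e, .c, .e, .c, .c, .c, .e])) (nd 43 (lf [.a, .c, .a, .c, .b, .c, .a, .c, .a, .c,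 .a, .c, .a, .b, .a, .c, .a, .c]) (lf [.d, .c, .d, .a, .d, .c, .d, .c, .d, .c, .a, .c, .d, .c]))) (nd 46 (nd 45 (lf [.e, .a, .e, .d, .e, .d, .a, .a, .a, .d, .e, .d]) (lf [.c, .e, .b, .e, .c, .e, .c, .e, .c, .b, .c, .e, .c, .e])) (nd 47 (lf [.b, .e, .c, .e, .b, .e, .c, .e, .b, .e, .c, .e, .c, .e, .c, .e, .b, .e, .c, .e, .b, .e, .c, .e, .b, .c]) (lf [.b, .c, .b, .c, .b, .c]))))) (nd 56 (nd 52 (nd 50 (nd 49 (lf [.c, .e, .c, .b, .c, .e, .c, .e, .c, .e, .b, .e, .c, .e]) (lf [.c, .e, .b, .e, .c, .e, .c, .e, .c, .e, .b, .e, .c, .e, .b, .e, .c, .e, .b, .c, .b, .e, .c, .e, .b, .e])) (nd 51 (lf [.c, .d, .c, .d, .b, .d, .c, .d, .c, .d, .c, .b, .c, .d]) (lf [.c, .e, .c, .a, .c, .e, .c, .e, .c, .e, .a, .e, .c, .e]))) (nd 54 (nd 53 (lf [.e, .c, .d, .c, .e, .c, .e, .c, .e, .d, .e, .c, .e, .c]) (lf [.d, .e, .b, .e, .d, .e, .d, .a, .b, .a, .d,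 .e])) (nd 55 (lf [.e, .b, .e, .c, .e, .c, .e, .c, .b, .c, .e, .c, .e, .c]) (lf [.b, .e, .c, .e, .b, .c, .b, .e, .c, .e, .b, .e, .c, .e, .b, .e, .c, .e, .c, .e, .c, .e, .b, .e, .c, .e])))) (nd 60 (nd 58 (nd 57 (lf [.b, .d, .b, .d, .b, .d]) (lf [.c, .d, .c, .d, .a, .d, .c, .d, .c, .d, .c, .a, .c, .d])) (nd 59 (lf [.c, .e, .c, .e, .a, .e, .c, .e, .c, .e, .c, .a, .c, .e]) (lf [.d, .e, .d, .e, .b, .e, .d, .e, .d, .a, .b, .a]))) (nd 62 (nd 61 (lf [.a, .d, .e, .d, .e, .e, .e, .d, .e, .d, .a, .e]) (lf [.a, .d, .a, .b, .a, .d, .a, .d, .b, .d])) (nd 63 (lf [.c, .e, .b, .e, .c, .e, .a, .e, .c, .e, .b, .e, .c, .e, .b, .e, .c, .e, .b, .a, .b, .e, .c, .e, .b, .e]) (lf [.e, .c, .e, .b, .e, .c, .e, .c, .e, .c, .b, .c, .e, .c])))))))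
noncomputable def tkw_circT_c1 : ℕ → List Gen := (nd 96 (nd 80 (nd 72 (nd 68 (nd 66 (nd 65 (lf [.c, .a, .e, .c, .a, .b, .a, .c, .e, .a, .c, .e, .a, .c, .e, .b, .e, .c, .a, .e]) (lf [.e, .d, .e, .d, .a, .c, .a, .d, .e, .d, .e, .c])) (nd 67 (lf [.d, .c, .d, .c, .d, .e, .d, .c, .d, .c, .d, .c, .e, .c]) (lf [.e, .c, .e, .c, .e, .b, .e, .c, .e, .c, .e, .c, .b, .c]))) (nd 70 (nd 69 (lf [.a, .c, .a, .c, .d, .c, .a, .c, .a, .c, .a, .c, .a, .d, .a, .c, .a, .c]) (lf [.b, .e, .b, .e, .b, .e])) (nd 71 (lf [.e, .c, .e, .c, .e, .c, .a, .c, .e, .c, .e, .c, .e, .a]) (lf [.c, .e, .a, .c, .e, .a, .e, .c, .a, .e, .c, .a, .e, .c, .a, .a, .a, .c, .e, .a])))) (nd 76 (nd 74 (nd 73 (lf [.d, .c, .d, .c, .d, .a, .d, .c, .d, .c, .d, .c, .a, .c]) (lf [.c, .a, .c, .a, .c, .b, .c, .a, .c, .a, .c, .a, .c, .a, .b, .a, .c, .a])) (nd 75 (lf [.a, .c, .e, .a, .c,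 .e, .b, .e, .c, .a, .e, .c, .a, .e, .c, .a, .b, .a, .c, .e]) (lf [.e, .c, .a, .c, .a, .c, .e, .a, .c, .e, .a, .c, .e, .c, .e, .c, .a, .e, .c, .a]))) (nd 78 (nd 77 (lf [.b, .c, .d, .a, .c, .b, .c, .d, .e, .d, .c, .b, .c, .a, .d, .c, .b, .c, .a, .d, .c, .b, .c, .a, .e, .a, .c, .b, .c, .d, .a, .c]) (lf [.c, .d, .b, .d, .c, .d, .e, .d, .c, .d, .b, .d, .c, .d, .b, .d, .c, .d, .b, .e, .b, .d, .c, .d, .b, .d])) (nd 79 (lf [.d, .c, .d, .c, .d, .b, .d, .c, .d, .c, .d, .c, .b, .c]) (lf [.d, .c, .d, .b, .d, .c, .d, .c, .d, .c, .d, .b, .d, .c, .d, .b, .d, .c, .d, .b, .c, .b, .d, .c, .d, .b]))))) (nd 88 (nd 84 (nd 82 (nd 81 (lf [.d, .b, .d, .c, .d, .b, .d, .c, .d, .c, .d, .c, .d, .b, .d, .c, .d, .b, .d, .c, .d, .b, .c, .b, .d, .c]) (lf [.c, .d, .c, .d, .c, .d, .b, .d, .c, .d, .c, .d, .c, .b])) (nd 83 (lf [.b, .c, .b, .d, .c, .d, .b, .d, .c,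 .d, .b, .d, .c, .d, .c, .d, .c, .d, .b, .d, .c, .d, .b, .d, .c, .d]) (lf [.c, .e, .a, .c, .e, .d, .e, .c, .a, .e, .c, .a, .e, .c, .a, .d, .a, .c, .e, .a]))) (nd 86 (nd 85 (lf [.e, .d, .e, .c, .e, .d, .e, .d, .a, .c, .a, .d]) (lf [.e, .a, .d, .e, .d, .e, .e, .e, .d, .e, .d, .a])) (nd 87 (lf [.e, .c, .e, .a, .e, .c, .e, .c, .e, .c, .a, .c, .e, .c]) (lf [.e, .c, .a, .e, .c, .a, .a, .a, .c, .e, .a, .c, .e, .a, .c, .e, .a, .e, .c, .a])))) (nd 92 (nd 90 (nd 89 (lf [.d, .c, .d, .c, .d, .c, .b, .c, .d, .c, .d, .c, .d, .b]) (lf [.b, .d, .c, .d, .b, .d, .c, .d, .b, .c, .b, .d, .c, .d, .b, .d, .c, .d, .b, .d, .c, .d, .c, .d, .c, .d])) (nd 91 (lf [.c, .a, .c, .a, .c, .e, .c, .a, .c, .a, .c, .a, .c, .a, .e, .a, .c, .a]) (lf [.d, .e, .d, .e, .c, .e, .d, .e, .d, .a, .c, .a]))) (nd 94 (nd 93 (lf [.e, .c, .a, .e, .c, .a, .b, .a, .c, .e, .a, .c,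 .e, .a, .c, .e, .b, .e, .c, .a]) (lf [.a, .d, .a, .c, .a, .d, .a, .d, .c, .d])) (nd 95 (lf [.e, .a, .c, .e, .d, .e, .c, .a, .e, .c, .a, .e, .c, .a, .d, .a, .c, .e, .a, .c]) (lf [.a, .e, .c, .a, .e, .c, .a, .d, .a, .c, .e, .a, .c, .e, .a, .c, .e, .d, .e, .c])))))) (nd 112 (nd 104 (nd 100 (nd 98 (nd 97 (lf [.c, .e, .c, .e, .b, .e, .c, .e, .c, .e, .c, .b, .c, .e]) (lf [.e, .c, .e, .c, .e, .a, .e, .c, .e, .c, .e, .c, .a, .c])) (nd 99 (lf [.e, .b, .e, .d, .e, .d, .a, .b, .a, .d, .e, .d]) (lf [.e, .c, .a, .b, .a, .c, .e, .a, .c, .e, .a, .c, .e, .b, .e, .c, .a, .e, .c, .a]))) (nd 102 (nd 101 (lf [.c, .d, .b, .d, .c, .d, .a, .d, .c, .d, .b, .d, .c, .d, .b, .d, .c, .d, .b, .a, .b, .d, .c, .d, .b, .d]) (lf [.e, .c, .e, .c, .e, .d, .e, .c, .e, .c, .e, .c, .d, .c])) (nd 103 (lf [.d, .c, .d, .b, .d, .c, .d, .a, .d, .c, .d, .b, .d, .c, .d,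 .b, .d, .c, .d, .b, .a, .b, .d, .c, .d, .b]) (lf [.c, .e, .a, .c, .e, .b, .e, .c, .a, .e, .c, .a, .e, .c, .a, .b, .a, .c, .e, .a])))) (nd 108 (nd 106 (nd 105 (lf [.e, .a, .c, .e, .a, .c, .e, .d, .e, .c, .a, .e, .c, .a, .e, .c, .a, .d, .a, .c]) (lf [.e, .d, .a, .b, .a, .d, .e, .d, .e, .b, .e, .d])) (nd 107 (lf [.d, .c, .b, .c, .a, .d, .c, .b, .c, .a, .c, .a, .c, .b, .c, .d, .a, .c, .b, .c, .d, .a, .c, .b, .c, .d, .c, .d, .c, .b, .c, .a]) (lf [.a, .c, .b, .c, .d, .a, .c, .b, .c, .d, .d, .d, .c, .b, .c, .a, .d, .c, .b, .c, .a, .d, .c, .b, .c, .a, .d, .a, .c, .b, .c, .d]))) (nd 110 (nd 109 (lf [.c, .e, .c, .d, .c, .d, .c, .d, .e, .d, .c, .d, .c, .d]) (lf [.a, .c, .e, .a, .c, .e, .e, .e, .c, .a, .e, .c, .a, .e, .c, .a, .e, .a, .c, .e])) (nd 111 (lf [.e, .c, .a, .e, .c, .a, .c, .a, .c, .e, .a, .c, .e, .a, .c, .e, .c, .e, .c, .a]) (lf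 [.a, .c, .a, .e, .a, .c, .a, .c, .a, .c, .a, .c, .e, .c, .a, .c, .a, .c]))))) (nd 120 (nd 116 (nd 114 (nd 113 (lf [.a, .d, .a, .d, .e, .d, .a, .d, .a, .e]) (lf [.e, .d, .a, .c, .a, .d, .e, .d, .e, .c, .e, .d])) (nd 115 (lf [.a, .c, .a, .c, .a, .c, .d, .c, .a, .c, .a, .c, .a, .c, .a, .d, .a, .c]) (lf [.d, .e, .d, .a, .b, .a, .d, .e, .d, .e, .b, .e]))) (nd 118 (nd 117 (lf [.d, .b, .d, .c, .d, .c, .d, .c, .b, .c, .d, .c, .d, .c]) (lf [.b, .d, .c, .d, .b, .c, .b, .d, .c, .d, .b, .d, .c, .d, .b, .d, .c, .d, .c, .d, .c, .d, .b, .d, .c, .d])) (nd 119 (lf [.c, .d, .a, .c, .b, .c, .d, .c, .d, .c, .b, .c, .a, .d, .c, .b, .c, .a, .d, .c, .b, .c, .a, .c, .a, .c, .b, .c, .d, .a, .c, .b]) (lf [.c, .e, .b, .e, .c, .e, .d, .e, .c, .e, .b, .e, .c, .e, .b, .e, .c, .e, .b, .d, .b, .e, .c, .e, .b, .e])))) (nd 124 (nd 122 (nd 121 (lf [.e, .c, .e,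 .b, .e, .c, .e, .e, .e, .c, .e, .b, .e, .c, .e, .b, .e, .c, .e, .b, .e, .b, .e, .c, .e, .b]) (lf [.e, .b, .e, .c, .e, .b, .e, .c, .e, .e, .e, .c, .e, .b, .e, .c, .e, .b, .e, .c, .e, .b, .e, .b, .e, .c])) (nd 123 (lf [.e, .a, .e, .c, .e, .c, .e, .c, .a, .c, .e, .c, .e, .c]) (lf [.e, .d, .e, .d, .a, .d, .a, .d, .e, .d, .e, .d]))) (nd 126 (nd 125 (lf [.d, .e, .d, .c, .d, .c, .d, .c, .e, .c, .d, .c, .d, .c]) (lf [.a, .c, .a, .d, .e, .d, .e, .c, .e, .d, .e, .d])) (nd 127 (lf [.c, .d, .c, .a, .c, .a, .c, .a, .c, .a, .d, .a, .c, .a, .c, .a, .c, .a]) (lf [.c, .e, .a, .e, .c, .e, .c, .e, .c, .a, .c, .e, .c, .e])))))))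
noncomputable def tkw_circT_c2 : ℕ → List Gen := (nd 160 (nd 144 (nd 136 (nd 132 (nd 130 (nd 129 (lf [.a, .c, .e, .a, .e, .c, .a, .e, .c, .a, .e, .c, .a, .a, .a, .c, .e, .a, .c, .e]) (lf [.d, .e, .d, .a, .c, .a, .d, .e, .d, .e, .c, .e])) (nd 131 (lf [.e, .c, .e, .d, .e, .d, .a, .c, .a, .d, .e, .d]) (lf [.c, .e, .d, .e, .c, .a, .e, .c, .a, .e, .c, .a, .d, .a, .c, .e, .a, .c, .e, .a]))) (nd 134 (nd 133 (lf [.a, .d, .e, .d, .e, .c, .e, .d, .e, .d, .a, .c]) (lf [.a, .e, .c, .a, .e, .c, .a, .a, .a, .c, .e, .a, .c, .e, .a, .c, .e, .a, .e, .c])) (nd 135 (lf [.a, .b, .a, .c, .e, .a, .c, .e, .a, .c, .e, .b, .e, .c, .a, .e, .c, .a, .e, .c]) (lf [.d, .c, .e, .c, .d, .c, .d, .c, .d, .e, .d, .c, .d, .c])))) (nd 140 (nd 138 (nd 137 (lf [.c, .a, .c, .a, .c, .a, .c, .e, .c, .a, .c, .a, .c, .a, .c, .a, .e, .a]) (lf [.c, .a, .c, .d, .c, .d, .c,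 .d, .a, .d, .c, .d, .c, .d])) (nd 139 (lf [.a, .d, .e, .d, .e, .b, .e, .d, .e, .d, .a, .b]) (lf [.d, .a, .d, .e, .d, .a, .d, .a, .e, .a]))) (nd 142 (nd 141 (lf [.b, .e, .c, .e, .b, .e, .c, .e, .d, .e, .c, .e, .b, .e, .c, .e, .b, .e, .c, .e, .b, .d, .b, .e, .c, .e]) (lf [.c, .e, .b, .e, .c, .e, .b, .e, .b, .e, .c, .e, .b, .e, .c, .e, .b, .e, .c, .e, .e, .e, .c, .e, .b, .e])) (nd 143 (lf [.a, .c, .e, .a, .c, .e, .a, .c, .e, .c, .e, .c, .a, .e, .c, .a, .e, .c, .a, .c]) (lf [.e, .c, .a, .a, .a, .c, .e, .a, .c, .e, .a, .c, .e, .a, .e, .c, .a, .e, .c, .a]))))) (nd 152 (nd 148 (nd 146 (nd 145 (lf [.b, .e, .c, .e, .b, .e, .c, .e, .a, .e, .c, .e, .b, .e, .c, .e, .b, .e, .c, .e, .b, .a, .b, .e, .c, .e]) (lf [.c, .d, .a, .c, .b, .c, .d, .b, .d, .c, .b, .c, .a, .d, .c, .b, .c, .a, .d, .c, .b, .c, .a, .b, .a, .c, .b, .c, .d, .a, .c, .b]))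 (nd 147 (lf [.a, .d, .c, .b, .c, .a, .d, .a, .c, .b, .c, .d, .a, .c, .b, .c, .d, .a, .c, .b, .c, .d, .d, .d, .c, .b, .c, .a, .d, .c, .b, .c]) (lf [.d, .a, .c, .b, .c, .d, .d, .d, .c, .b, .c, .a, .d, .c, .b, .c, .a, .d, .c, .b, .c, .a, .d, .a, .c, .b, .c, .d, .a, .c, .b, .c]))) (nd 150 (nd 149 (lf [.d, .a, .b, .a, .d, .e, .d, .e, .b, .e, .d, .e]) (lf [.d, .e, .d, .a, .a, .a, .d, .e, .d, .e, .a, .e])) (nd 151 (lf [.b, .c, .d, .a, .c, .b, .c, .d, .b, .d, .c, .b, .c, .a, .d, .c, .b, .c, .a, .d, .c, .b, .c, .a, .b, .a, .c, .b, .c, .d, .a, .c]) (lf [.a, .b, .a, .d, .a, .d, .b, .d, .a, .d])))) (nd 156 (nd 154 (nd 153 (lf [.d, .a, .c, .b, .c, .d, .a, .c, .b, .c, .d, .c, .d, .c, .b, .c, .a, .d, .c, .b, .c, .a, .d, .c, .b, .c, .a, .c, .a, .c, .b, .c]) (lf [.a, .d, .c, .b, .c, .a, .c, .a, .c, .b, .c, .d, .a, .c, .b, .c, .d, .a, .c, .b,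 .c, .d, .c, .d, .c, .b, .c, .a, .d, .c, .b, .c])) (nd 155 (lf [.d, .a, .b, .a, .d, .a, .d, .b, .d, .a]) (lf [.a, .b, .a, .d, .e, .d, .e, .b, .e, .d, .e, .d]))) (nd 158 (nd 157 (lf [.d, .b, .d, .a, .d, .a, .b, .a, .d, .a]) (lf [.c, .d, .b, .c, .b, .d, .c, .d, .b, .d, .c, .d, .b, .d, .c, .d, .c, .d, .c, .d, .b, .d, .c, .d, .b, .d])) (nd 159 (lf [.d, .b, .d, .c, .d, .a, .d, .c, .d, .b, .d, .c, .d, .b, .d, .c, .d, .b, .a, .b, .d, .c, .d, .b, .d, .c]) (lf [.c, .b, .c, .d, .a, .c, .b, .c, .d, .a, .d, .c, .b, .c, .a, .d, .c, .b, .c, .a, .d, .c, .b, .c, .a, .a, .a, .c, .b, .c, .d, .a])))))) (nd 176 (nd 168 (nd 164 (nd 162 (nd 161 (lf [.a, .d, .c, .b, .c, .a, .d, .c, .b, .c, .a, .a, .a, .c, .b, .c, .d, .a, .c, .b, .c, .d, .a, .c, .b, .c, .d, .a, .d, .c, .b, .c]) (lf [.a, .c, .a, .c, .a, .c, .b, .c, .a, .c, .a, .c, .a, .c, .a, .b, .a,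 .c])) (nd 163 (lf [.e, .d, .e, .d, .a, .b, .a, .d, .e, .d, .e, .b]) (lf [.e, .d, .a, .a, .a, .d, .e, .d, .e, .a, .e, .d]))) (nd 166 (nd 165 (lf [.c, .a, .c, .a, .c, .a, .c, .d, .c, .a, .c, .a, .c, .a, .c, .a, .d, .a]) (lf [.a, .e, .c, .a, .d, .a, .c, .e, .a, .c, .e, .a, .c, .e, .d, .e, .c, .a, .e, .c])) (nd 167 (lf [.e, .a, .c, .e, .a, .e, .c, .a, .e, .c, .a, .e, .c, .a, .a, .a, .c, .e, .a, .c]) (lf [.d, .c, .b, .c, .a, .d, .c, .b, .c, .a, .e, .a, .c, .b, .c, .d, .a, .c, .b, .c, .d, .a, .c, .b, .c, .d, .e, .d, .c, .b, .c, .a])))) (nd 172 (nd 170 (nd 169 (lf [.c, .d, .a, .c, .b, .c, .d, .a, .c, .b, .c, .d, .a, .d, .c, .b, .c, .a, .d, .c, .b, .c, .a, .d, .c, .b, .c, .a, .a, .a, .c, .b]) (lf [.e, .b, .e, .c, .e, .a, .e, .c, .e, .b, .e, .c, .e, .b, .e, .c, .e, .b, .a, .b, .e, .c, .e, .b, .e, .c])) (nd 171 (lf [.a, .c, .b, .c, .d,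 .a, .d, .c, .b, .c, .a, .d, .c, .b, .c, .a, .d, .c, .b, .c, .a, .a, .a, .c, .b, .c, .d, .a, .c, .b, .c, .d]) (lf [.d, .c, .b, .c, .a, .a, .a, .c, .b, .c, .d, .a, .c, .b, .c, .d, .a, .c, .b, .c, .d, .a, .d, .c, .b, .c, .a, .d, .c, .b, .c, .a]))) (nd 174 (nd 173 (lf [.b, .d, .c, .d, .b, .d, .c, .d, .a, .d, .c, .d, .b, .d, .c, .d, .b, .d, .c, .d, .b, .a, .b, .d, .c, .d]) (lf [.e, .c, .a, .e, .a, .c, .e, .a, .c, .e, .a, .c, .e, .e, .e, .c, .a, .e, .c, .a])) (nd 175 (lf [.c, .a, .c, .a, .c, .a, .e, .a, .c, .a, .c, .a, .c, .a, .c, .e, .c, .a]) (lf [.e, .c, .a, .e, .c, .a, .e, .c, .a, .a, .a, .c, .e, .a, .c, .e, .a, .c, .e, .a]))))) (nd 184 (nd 180 (nd 178 (nd 177 (lf [.c, .b, .c, .a, .d, .c, .b, .c, .a, .a, .a, .c, .b, .c, .d, .a, .c, .b, .c, .d, .a, .c, .b, .c, .d, .a, .d, .c, .b, .c, .a, .d]) (lf [.e, .d, .e, .c, .a, .e, .c, .a,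 .e, .c, .a, .d, .a, .c, .e, .a, .c, .e, .a, .c])) (nd 179 (lf [.c, .d, .b, .d, .c, .d, .b, .d, .c, .d, .a, .d, .c, .d, .b, .d, .c, .d, .b, .d, .c, .d, .b, .a, .b, .d]) (lf [.c, .d, .b, .d, .c, .d, .b, .d, .c, .d, .b, .c, .b, .d, .c, .d, .b, .d, .c, .d, .b, .d, .c, .d, .c, .d]))) (nd 182 (nd 181 (lf [.c, .d, .a, .c, .b, .c, .d, .a, .d, .c, .b, .c, .a, .d, .c, .b, .c, .a, .d, .c, .b, .c, .a, .a, .a, .c, .b, .c, .d, .a, .c, .b]) (lf [.a, .c, .a, .b, .a, .c, .a, .c, .a, .c, .a, .c, .b, .c, .a, .c, .a, .c])) (nd 183 (lf [.b, .d, .c, .d, .b, .d, .c, .d, .e, .d, .c, .d, .b, .d, .c, .d, .b, .d, .c, .d, .b, .e, .b, .d, .c, .d]) (lf [.e, .c, .e, .b, .e, .c, .e, .a, .e, .c, .e, .b, .e, .c, .e, .b, .e, .c, .e, .b, .a, .b, .e, .c, .e, .b])))) (nd 188 (nd 186 (nd 185 (lf [.c, .e, .c, .e, .c, .e, .b, .e, .c, .e, .c, .e, .c, .b]) (lf [.e, .c,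 .a, .e, .c, .a, .d, .a, .c, .e, .a, .c, .e, .a, .c, .e, .d, .e, .c, .a])) (nd 187 (lf [.c, .d, .c, .b, .c, .d, .c, .d, .c, .d, .b, .d, .c, .d]) (lf [.a, .c, .e, .c, .e, .c, .a, .e, .c, .a, .e, .c, .a, .c, .a, .c, .e, .a, .c, .e]))) (nd 190 (nd 189 (lf [.c, .a, .c, .a, .c, .d, .c, .a, .c, .a, .c, .a, .c, .a, .d, .a, .c, .a]) (lf [.a, .c, .a, .c, .a, .c, .e, .c, .a, .c, .a, .c, .a, .c, .a, .e, .a, .c])) (nd 191 (lf [.e, .d, .e, .d, .e, .d, .e, .d, .a, .d, .a, .d]) (lf [.b, .d, .c, .d, .a, .d, .c, .d, .b, .d, .c, .d, .b, .d, .c, .d, .b, .a, .b, .d, .c, .d, .b, .d, .c, .d])))))))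
noncomputable def tkw_circT_c3 : ℕ → List Gen := (nd 224 (nd 208 (nd 200 (nd 196 (nd 194 (nd 193 (lf [.a, .c, .b, .c, .d, .a, .c, .b, .c, .d, .a, .d, .c, .b, .c, .a, .d, .c, .b, .c, .a, .d, .c, .b, .c, .a, .a, .a, .c, .b, .c, .d]) (lf [.c, .d, .b, .d, .c, .d, .c, .d, .c, .b, .c, .d, .c, .d])) (nd 195 (lf [.a, .e, .c, .a, .b, .a, .c, .e, .a, .c, .e, .a, .c, .e, .b, .e, .c, .a, .e, .c]) (lf [.c, .e, .c, .e, .c, .a, .e, .c, .a, .e, .c, .a, .c, .a, .c, .e, .a, .c, .e, .a]))) (nd 198 (nd 197 (lf [.d, .a, .c, .a, .d, .e, .d, .e, .c, .e, .d, .e]) (lf [.c, .a, .c, .a, .c, .a, .c, .b, .c, .a, .c, .a, .c, .a, .c, .a, .b, .a])) (nd 199 (lf [.c, .d, .c, .d, .e, .d, .c, .d, .c, .d, .c, .e, .c, .d]) (lf [.c, .e, .a, .c, .e, .a, .c, .e, .c, .e, .c, .a, .e, .c, .a, .e, .c, .a, .c, .a])))) (nd 204 (nd 202 (nd 201 (lf [.a, .c, .a, .c, .a, .b,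 .a, .c, .a, .c, .a, .c, .a, .c, .b, .c, .a, .c]) (lf [.c, .a, .e, .c, .a, .d, .a, .c, .e, .a, .c, .e, .a, .c, .e, .d, .e, .c, .a, .e])) (nd 203 (lf [.c, .a, .d, .e, .d, .e, .c, .e, .d, .e, .d, .a]) (lf [.b, .c, .d, .a, .c, .b, .c, .d, .a, .d, .c, .b, .c, .a, .d, .c, .b, .c, .a, .d, .c, .b, .c, .a, .a, .a, .c, .b, .c, .d, .a, .c]))) (nd 206 (nd 205 (lf [.b, .c, .b, .e, .c, .e, .b, .e, .c, .e, .b, .e, .c, .e, .c, .e, .c, .e, .b, .e, .c, .e, .b, .e, .c, .e]) (lf [.c, .e, .a, .c, .e, .a, .c, .e, .b, .e, .c, .a, .e, .c, .a, .e, .c, .a, .b, .a])) (nd 207 (lf [.c, .a, .c, .a, .c, .e, .a, .c, .e, .a, .c, .e, .c, .e, .c, .a, .e, .c, .a, .e]) (lf [.a, .e, .c, .a, .e, .c, .a, .c, .a, .c, .e, .a, .c, .e, .a, .c, .e, .c, .e, .c]))))) (nd 216 (nd 212 (nd 210 (nd 209 (lf [.a, .e, .c, .a, .c, .a, .c, .e, .a, .c, .e, .a, .c, .e, .c, .e, .c, .a,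 .e, .c]) (lf [.e, .c, .e, .b, .e, .c, .e, .b, .e, .c, .e, .c, .e, .c, .e, .b, .e, .c, .e, .b, .e, .c, .e, .b, .c, .b])) (nd 211 (lf [.d, .a, .a, .a, .d, .e, .d, .e, .a, .e, .d, .e]) (lf [.a, .e, .c, .a, .e, .c, .a, .b, .a, .c, .e, .a, .c, .e, .a, .c, .e, .b, .e, .c]))) (nd 214 (nd 213 (lf [.a, .c, .e, .a, .c, .e, .c, .e, .c, .a, .e, .c, .a, .e, .c, .a, .c, .a, .c, .e]) (lf [.c, .a, .e, .c, .a, .c, .a, .c, .e, .a, .c, .e, .a, .c, .e, .c, .e, .c, .a, .e])) (nd 215 (lf [.e, .a, .c, .e, .a, .c, .e, .c, .e, .c, .a, .e, .c, .a, .e, .c, .a, .c, .a, .c]) (lf [.e, .c, .a, .d, .a, .c, .e, .a, .c, .e, .a, .c, .e, .d, .e, .c, .a, .e, .c, .a])))) (nd 220 (nd 218 (nd 217 (lf [.e, .a, .c, .e, .a, .c, .e, .a, .e, .c, .a, .e, .c, .a, .e, .c, .a, .a, .a, .c]) (lf [.d, .b, .d, .c, .d, .b, .d, .c, .d, .a, .d, .c, .d, .b, .d, .c, .d, .b, .d, .c,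 .d, .b, .a, .b, .d, .c])) (nd 219 (lf [.c, .d, .b, .d, .c, .d, .b, .c, .b, .d, .c, .d, .b, .d, .c, .d, .b, .d, .c, .d, .c, .d, .c, .d, .b, .d]) (lf [.c, .d, .c, .d, .c, .b, .c, .d, .c, .d, .c, .d, .b, .d]))) (nd 222 (nd 221 (lf [.d, .e, .d, .a, .d, .a, .d, .e, .d, .e, .d, .e]) (lf [.d, .c, .b, .c, .a, .b, .a, .c, .b, .c, .d, .a, .c, .b, .c, .d, .a, .c, .b, .c, .d, .b, .d, .c, .b, .c, .a, .d, .c, .b, .c, .a])) (nd 223 (lf [.e, .c, .e, .c, .b, .c, .e, .c, .e, .c, .e, .b, .e, .c]) (lf [.e, .a, .c, .e, .a, .c, .e, .b, .e, .c, .a, .e, .c, .a, .e, .c, .a, .b, .a, .c])))))) (nd 240 (nd 232 (nd 228 (nd 226 (nd 225 (lf [.c, .a, .b, .a, .c, .e, .a, .c, .e, .a, .c, .e, .b, .e, .c, .a, .e, .c, .a, .e]) (lf [.a, .e, .c, .a, .a, .a, .c, .e, .a, .c, .e, .a, .c, .e, .a, .e, .c, .a, .e, .c])) (nd 227 (lf [.c, .a, .b, .a, .c, .a, .c, .a, .c, .a,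 .c, .b, .c, .a, .c, .a, .c, .a]) (lf [.c, .e, .c, .e, .c, .e, .a, .e, .c, .e, .c, .e, .c, .a]))) (nd 230 (nd 229 (lf [.a, .c, .a, .c, .e, .a, .c, .e, .a, .c, .e, .c, .e, .c, .a, .e, .c, .a, .e, .c]) (lf [.e, .d, .a, .e, .a, .d, .e, .d, .e, .e, .e, .d])) (nd 231 (lf [.c, .d, .c, .d, .c, .d, .e, .d, .c, .d, .c, .d, .c, .e]) (lf [.c, .e, .b, .e, .c, .e, .b, .e, .c, .e, .a, .e, .c, .e, .b, .e, .c, .e, .b, .e, .c, .e, .b, .a, .b, .e])))) (nd 236 (nd 234 (nd 233 (lf [.a, .c, .a, .d, .a, .d, .c, .d, .a, .d]) (lf [.d, .c, .d, .b, .d, .c, .d, .b, .d, .c, .d, .c, .d, .c, .d, .b, .d, .c, .d, .b, .d, .c, .d, .b, .c, .b])) (nd 235 (lf [.d, .c, .d, .a, .d, .a, .c, .a, .d, .a]) (lf [.a, .d, .e, .d, .e, .d, .e, .d, .e, .d, .a, .d]))) (nd 238 (nd 237 (lf [.e, .b, .e, .c, .e, .b, .d, .b, .e, .c, .e, .b, .e, .c, .e, .b, .e, .c, .e, .d, .e, .c,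 .e, .b, .e, .c]) (lf [.c, .d, .b, .d, .c, .d, .b, .d, .c, .d, .c, .d, .c, .d, .b, .d, .c, .d, .b, .d, .c, .d, .b, .c, .b, .d])) (nd 239 (lf [.e, .b, .e, .c, .e, .b, .e, .c, .e, .a, .e, .c, .e, .b, .e, .c, .e, .b, .e, .c, .e, .b, .a, .b, .e, .c]) (lf [.b, .e, .c, .e, .b, .e, .c, .e, .c, .e, .c, .e, .b, .e, .c, .e, .b, .e, .c, .e, .b, .c, .b, .e, .c, .e]))))) (nd 248 (nd 244 (nd 242 (nd 241 (lf [.c, .b, .c, .a, .d, .c, .b, .c, .a, .b, .a, .c, .b, .c, .d, .a, .c, .b, .c, .d, .a, .c, .b, .c, .d, .b, .d, .c, .b, .c, .a, .d]) (lf [.d, .a, .d, .a, .e, .a, .d, .a, .d, .e])) (nd 243 (lf [.a, .c, .b, .c, .d, .b, .d, .c, .b, .c, .a, .d, .c, .b, .c, .a, .d, .c, .b, .c, .a, .b, .a, .c, .b, .c, .d, .a, .c, .b, .c, .d]) (lf [.c, .b, .c, .a, .d, .c, .b, .c, .a, .c, .a, .c, .b, .c, .d, .a, .c, .b, .c, .d, .a, .c, .b, .c, .d, .c, .d, .c, .b, .c,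 .a, .d]))) (nd 246 (nd 245 (lf [.c, .d, .c, .a, .c, .d, .c, .d, .c, .d, .a, .d, .c, .d]) (lf [.c, .b, .c, .d, .c, .d, .c, .d, .b, .d, .c, .d, .c, .d])) (nd 247 (lf [.d, .c, .d, .a, .d, .c, .d, .b, .d, .c, .d, .b, .d, .c, .d, .b, .a, .b, .d, .c, .d, .b, .d, .c, .d, .b]) (lf [.d, .c, .b, .c, .d, .c, .d, .c, .d, .b, .d, .c, .d, .c])))) (nd 252 (nd 250 (nd 249 (lf [.b, .c, .d, .a, .c, .b, .c, .d, .a, .c, .b, .c, .d, .b, .d, .c, .b, .c, .a, .d, .c, .b, .c, .a, .d, .c, .b, .c, .a, .b, .a, .c]) (lf [.c, .b, .c, .a, .c, .a, .c, .b, .c, .d, .a, .c, .b, .c, .d, .a, .c, .b, .c, .d, .c, .d, .c, .b, .c, .a, .d, .c, .b, .c, .a, .d])) (nd 251 (lf [.a, .c, .b, .c, .d, .a, .c, .b, .c, .d, .c, .d, .c, .b, .c, .a, .d, .c, .b, .c, .a, .d, .c, .b, .c, .a, .c, .a, .c, .b, .c, .d]) (lf [.d, .c, .b, .c, .a, .c, .a, .c, .b, .c, .d, .a, .c, .b, .c, .d,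 .a, .c, .b, .c, .d, .c, .d, .c, .b, .c, .a, .d, .c, .b, .c, .a]))) (nd 254 (nd 253 (lf [.c, .a, .d, .c, .b, .c, .a, .e, .a, .c, .b, .c, .d, .a, .c, .b, .c, .d, .a, .c, .b, .c, .d, .e, .d, .c, .b, .c, .a, .d, .c, .b]) (lf [.c, .d, .b, .d, .c, .b, .c, .a, .d, .c, .b, .c, .a, .d, .c, .b, .c, .a, .b, .a, .c, .b, .c, .d, .a, .c, .b, .c, .d, .a, .c, .b])) (nd 255 (lf [.c, .a, .c, .a, .e, .a, .c, .a, .c, .a, .c, .a, .c, .e, .c, .a, .c, .a]) (lf [.c, .a, .c, .b, .c, .a, .c, .a, .c, .a, .c, .a, .b, .a, .c, .a, .c, .a])))))))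
noncomputable def tkw_circT_c4 : ℕ → List Gen := (nd 288 (nd 272 (nd 264 (nd 260 (nd 258 (nd 257 (lf [.b, .a, .d, .e, .d, .e, .b, .e, .d, .e, .d, .a]) (lf [.d, .c, .d, .c, .b, .c, .d, .c, .d, .c, .d, .b, .d, .c])) (nd 259 (lf [.d, .a, .c, .a, .d, .a, .d, .c, .d, .a]) (lf [.e, .d, .a, .d, .a, .e, .a, .d, .a, .d]))) (nd 262 (nd 261 (lf [.d, .e, .d, .e, .d, .a, .d, .a, .d, .e, .d, .e]) (lf [.d, .a, .d, .e, .d, .e, .d, .e, .d, .e, .d, .a])) (nd 263 (lf [.c, .e, .d, .e, .c, .e, .c, .e, .c, .d, .c, .e, .c, .e]) (lf [.d, .a, .c, .b, .c, .d, .b, .d, .c, .b, .c, .a, .d, .c, .b, .c, .a, .d, .c, .b, .c, .a, .b, .a, .c, .b, .c, .d, .a, .c, .b, .c])))) (nd 268 (nd 266 (nd 265 (lf [.c, .d, .a, .d, .c, .d, .c, .d, .c, .a, .c, .d, .c, .d]) (lf [.d, .b, .d, .c, .d, .b, .e, .b, .d, .c, .d, .b, .d, .c, .d, .b, .d, .c, .d, .e, .d, .c, .d, .b, .d,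 .c])) (nd 267 (lf [.b, .d, .c, .d, .b, .d, .c, .d, .c, .d, .c, .d, .b, .d, .c, .d, .b, .d, .c, .d, .b, .c, .b, .d, .c, .d]) (lf [.d, .a, .d, .c, .d, .c, .d, .c, .a, .c, .d, .c, .d, .c]))) (nd 270 (nd 269 (lf [.c, .a, .d, .a, .c, .a, .c, .a, .c, .a, .c, .d, .c, .a, .c, .a, .c, .a]) (lf [.d, .c, .d, .c, .a, .c, .d, .c, .d, .c, .d, .a, .d, .c])) (nd 271 (lf [.c, .a, .e, .c, .a, .e, .c, .a, .a, .a, .c, .e, .a, .c, .e, .a, .c, .e, .a, .e]) (lf [.c, .d, .c, .d, .c, .d, .a, .d, .c, .d, .c, .d, .c, .a]))))) (nd 280 (nd 276 (nd 274 (nd 273 (lf [.e, .c, .e, .b, .e, .c, .e, .d, .e, .c, .e, .b, .e, .c, .e, .b, .e, .c, .e, .b, .d, .b, .e, .c, .e, .b]) (lf [.a, .c, .b, .c, .d, .a, .c, .b, .c, .d, .e, .d, .c, .b, .c, .a, .d, .c, .b, .c, .a, .d, .c, .b, .c, .a, .e, .a, .c, .b, .c, .d])) (nd 275 (lf [.a, .d, .c, .b, .c, .a, .d, .c, .b, .c, .a,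 .e, .a, .c, .b, .c, .d, .a, .c, .b, .c, .d, .a, .c, .b, .c, .d, .e, .d, .c, .b, .c]) (lf [.e, .e, .e, .d, .e, .d, .a, .e, .a, .d, .e, .d]))) (nd 278 (nd 277 (lf [.e, .d, .a, .d, .a, .d, .e, .d, .e, .d, .e, .d]) (lf [.e, .b, .e, .c, .e, .c, .e, .c, .e, .b, .e, .c, .e, .b, .e, .c, .e, .b, .c, .b, .e, .c, .e, .b, .e, .c])) (nd 279 (lf [.e, .c, .e, .c, .e, .c, .b, .c, .e, .c, .e, .c, .e, .b]) (lf [.b, .e, .c, .e, .b, .e, .c, .e, .b, .c, .b, .e, .c, .e, .b, .e, .c, .e, .b, .e, .c, .e, .c, .e, .c, .e])))) (nd 284 (nd 282 (nd 281 (lf [.a, .d, .c, .b, .c, .a, .e, .a, .c, .b, .c, .d, .a, .c, .b, .c, .d, .a, .c, .b, .c, .d, .e, .d, .c, .b, .c, .a, .d, .c, .b, .c]) (lf [.d, .a, .d, .c, .d, .b, .d, .c, .d, .b, .d, .c, .d, .b, .a, .b, .d, .c, .d, .b, .d, .c, .d, .b, .d, .c])) (nd 283 (lf [.a, .d, .c, .b, .c, .a, .d, .c, .b, .c, .a, .c, .a,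 .c, .b, .c, .d, .a, .c, .b, .c, .d, .a, .c, .b, .c, .d, .c, .d, .c, .b, .c]) (lf [.b, .c, .d, .c, .d, .c, .d, .b, .d, .c, .d, .c, .d, .c]))) (nd 286 (nd 285 (lf [.c, .b, .c, .d, .a, .c, .b, .c, .d, .b, .d, .c, .b, .c, .a, .d, .c, .b, .c, .a, .d, .c, .b, .c, .a, .b, .a, .c, .b, .c, .d, .a]) (lf [.a, .c, .b, .c, .a, .c, .a, .c, .a, .c, .a, .b, .a, .c, .a, .c, .a, .c])) (nd 287 (lf [.a, .c, .e, .e, .e, .c, .a, .e, .c, .a, .e, .c, .a, .e, .a, .c, .e, .a, .c, .e]) (lf [.c, .e, .b, .e, .c, .a, .e, .c, .a, .e, .c, .a, .b, .a, .c, .e, .a, .c, .e, .a])))))) (nd 304 (nd 296 (nd 292 (nd 290 (nd 289 (lf [.c, .a, .c, .a, .b, .a, .c, .a, .c, .a, .c, .a, .c, .b, .c, .a, .c, .a]) (lf [.b, .d, .c, .d, .c, .d, .c, .b, .c, .d, .c, .d, .c, .d])) (nd 291 (lf [.b, .c, .a, .d, .c, .b, .c, .a, .c, .a, .c, .b, .c, .d, .a, .c, .b, .c, .d, .a, .c, .b,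 .c, .d, .c, .d, .c, .b, .c, .a, .d, .c]) (lf [.c, .e, .b, .c, .b, .e, .c, .e, .b, .e, .c, .e, .b, .e, .c, .e, .c, .e, .c, .e, .b, .e, .c, .e, .b, .e]))) (nd 294 (nd 293 (lf [.d, .c, .b, .c, .a, .d, .c, .b, .c, .a, .a, .a, .c, .b, .c, .d, .a, .c, .b, .c, .d, .a, .c, .b, .c, .d, .a, .d, .c, .b, .c, .a]) (lf [.b, .d, .c, .d, .b, .e, .b, .d, .c, .d, .b, .d, .c, .d, .b, .d, .c, .d, .e, .d, .c, .d, .b, .d, .c, .d])) (nd 295 (lf [.b, .c, .a, .d, .c, .b, .c, .a, .a, .a, .c, .b, .c, .d, .a, .c, .b, .c, .d, .a, .c, .b, .c, .d, .a, .d, .c, .b, .c, .a, .d, .c]) (lf [.d, .a, .d, .c, .b, .c, .a, .d, .c, .b, .c, .a, .d, .c, .b, .c, .a, .a, .a, .c, .b, .c, .d, .a, .c, .b, .c, .d, .a, .c, .b, .c])))) (nd 300 (nd 298 (nd 297 (lf [.c, .a, .c, .a, .c, .a, .c, .a, .b, .a, .c, .a, .c, .a, .c, .a, .c, .b]) (lf [.a, .d, .a, .d, .c, .d, .a, .d, .a, .c]))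 (nd 299 (lf [.d, .a, .c, .b, .c, .d, .c, .d, .c, .b, .c, .a, .d, .c, .b, .c, .a, .d, .c, .b, .c, .a, .c, .a, .c, .b, .c, .d, .a, .c, .b, .c]) (lf [.c, .a, .c, .a, .c, .a, .c, .a, .d, .a, .c, .a, .c, .a, .c, .a, .c, .d]))) (nd 302 (nd 301 (lf [.c, .d, .c, .d, .c, .a, .c, .d, .c, .d, .c, .d, .a, .d]) (lf [.c, .b, .c, .a, .d, .c, .b, .c, .a, .d, .c, .b, .c, .a, .b, .a, .c, .b, .c, .d, .a, .c, .b, .c, .d, .a, .c, .b, .c, .d, .b, .d])) (nd 303 (lf [.c, .e, .c, .d, .c, .e, .c, .e, .c, .e, .d, .e, .c, .e]) (lf [.e, .c, .e, .c, .d, .c, .e, .c, .e, .c, .e, .d, .e, .c]))))) (nd 312 (nd 308 (nd 306 (nd 305 (lf [.a, .c, .a, .c, .a, .d, .a, .c, .a, .c, .a, .c, .a, .c, .d, .c, .a, .c]) (lf [.b, .c, .d, .a, .c, .b, .c, .d, .a, .c, .b, .c, .d, .a, .d, .c, .b, .c, .a, .d, .c, .b, .c, .a, .d, .c, .b, .c, .a, .a, .a, .c])) (nd 307 (lf [.d, .a,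 .c, .b, .c, .d, .a, .d, .c, .b, .c, .a, .d, .c, .b, .c, .a, .d, .c, .b, .c, .a, .a, .a, .c, .b, .c, .d, .a, .c, .b, .c]) (lf [.c, .a, .d, .a, .d, .c, .d, .a, .d, .a]))) (nd 310 (nd 309 (lf [.c, .a, .e, .c, .a, .e, .c, .a, .d, .a, .c, .e, .a, .c, .e, .a, .c, .e, .d, .e]) (lf [.c, .a, .e, .a, .c, .a, .c, .a, .c, .a, .c, .e, .c, .a, .c, .a, .c, .a])) (nd 311 (lf [.c, .d, .c, .d, .c, .d, .b, .d, .c, .d, .b, .d, .c, .d, .b, .c, .b, .d, .c, .d, .b, .d, .c, .d, .b, .d]) (lf [.c, .a, .a, .a, .c, .b, .c, .d, .a, .c, .b, .c, .d, .a, .c, .b, .c, .d, .a, .d, .c, .b, .c, .a, .d, .c, .b, .c, .a, .d, .c, .b])))) (nd 316 (nd 314 (nd 313 (lf [.a, .d, .a, .d, .b, .d, .a, .d, .a, .b]) (lf [.c, .a, .c, .a, .c, .a, .b, .a, .c, .a, .c, .a, .c, .a, .c, .b, .c, .a])) (nd 315 (lf [.c, .b, .c, .d, .a, .c, .b, .c, .d, .c, .d, .c, .b, .c, .a, .d, .c, .b,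 .c, .a, .d, .c, .b, .c, .a, .c, .a, .c, .b, .c, .d, .a]) (lf [.a, .d, .c, .b, .c, .a, .a, .a, .c, .b, .c, .d, .a, .c, .b, .c, .d, .a, .c, .b, .c, .d, .a, .d, .c, .b, .c, .a, .d, .c, .b, .c]))) (nd 318 (nd 317 (lf [.c, .d, .b, .d, .c, .d, .b, .a, .b, .d, .c, .d, .b, .d, .c, .d, .b, .d, .c, .d, .a, .d, .c, .d, .b, .d]) (lf [.c, .e, .c, .e, .c, .d, .c, .e, .c, .e, .c, .e, .d, .e])) (nd 319 (lf [.d, .a, .d, .a, .b, .a, .d, .a, .d, .b]) (lf [.c, .e, .a, .e, .c, .a, .e, .c, .a, .e, .c, .a, .a, .a, .c, .e, .a, .c, .e, .a])))))))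
noncomputable def tkw_circT_c5 : ℕ → List Gen := (nd 352 (nd 336 (nd 328 (nd 324 (nd 322 (nd 321 (lf [.e, .b, .e, .c, .e, .b, .c, .b, .e, .c, .e, .b, .e, .c, .e, .b, .e, .c, .e, .c, .e, .c, .e, .b, .e, .c]) (lf [.c, .e, .b, .e, .c, .e, .b, .e, .c, .e, .b, .c, .b, .e, .c, .e, .b, .e, .c, .e, .b, .e, .c, .e, .c, .e])) (nd 323 (lf [.b, .e, .c, .e, .b, .d, .b, .e, .c, .e, .b, .e, .c, .e, .b, .e, .c, .e, .d, .e, .c, .e, .b, .e, .c, .e]) (lf [.c, .d, .a, .d, .c, .b, .c, .a, .d, .c, .b, .c, .a, .d, .c, .b, .c, .a, .a, .a, .c, .b, .c, .d, .a, .c, .b, .c, .d, .a, .c, .b]))) (nd 326 (nd 325 (lf [.d, .c, .a, .c, .d, .c, .d, .c, .d, .a, .d, .c, .d, .c]) (lf [.d, .c, .b, .c, .a, .d, .c, .b, .c, .a, .b, .a, .c, .b, .c, .d, .a, .c, .b, .c, .d, .a, .c, .b, .c, .d, .b, .d, .c, .b, .c, .a])) (nd 327 (lf [.b, .c, .a, .c, .a, .c, .b, .c, .d, .a,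 .c, .b, .c, .d, .a, .c, .b, .c, .d, .c, .d, .c, .b, .c, .a, .d, .c, .b, .c, .a, .d, .c]) (lf [.a, .c, .e, .b, .e, .c, .a, .e, .c, .a, .e, .c, .a, .b, .a, .c, .e, .a, .c, .e])))) (nd 332 (nd 330 (nd 329 (lf [.c, .a, .c, .e, .c, .a, .c, .a, .c, .a, .c, .a, .e, .a, .c, .a, .c, .a]) (lf [.d, .e, .d, .a, .d, .a, .e, .a, .d, .a])) (nd 331 (lf [.a, .c, .e, .c, .a, .c, .a, .c, .a, .c, .a, .e, .a, .c, .a, .c, .a, .c]) (lf [.a, .c, .b, .c, .d, .a, .c, .b, .c, .d, .b, .d, .c, .b, .c, .a, .d, .c, .b, .c, .a, .d, .c, .b, .c, .a, .b, .a, .c, .b, .c, .d]))) (nd 334 (nd 333 (lf [.d, .c, .b, .c, .a, .d, .c, .b, .c, .a, .d, .c, .b, .c, .a, .c, .a, .c, .b, .c, .d, .a, .c, .b, .c, .d, .a, .c, .b, .c, .d, .c]) (lf [.d, .e, .e, .e, .d, .e, .d, .a, .e, .a, .d, .e])) (nd 335 (lf [.a, .c, .b, .c, .d, .c, .d, .c, .b, .c, .a, .d, .c, .b, .c, .a, .d, .c,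 .b, .c, .a, .c, .a, .c, .b, .c, .d, .a, .c, .b, .c, .d]) (lf [.a, .d, .a, .d, .e, .d, .e, .d, .e, .d, .e, .d]))))) (nd 344 (nd 340 (nd 338 (nd 337 (lf [.b, .c, .d, .a, .c, .b, .c, .d, .c, .d, .c, .b, .c, .a, .d, .c, .b, .c, .a, .d, .c, .b, .c, .a, .c, .a, .c, .b, .c, .d, .a, .c]) (lf [.e, .a, .c, .e, .b, .e, .c, .a, .e, .c, .a, .e, .c, .a, .b, .a, .c, .e, .a, .c])) (nd 339 (lf [.b, .c, .d, .e, .d, .c, .b, .c, .a, .d, .c, .b, .c, .a, .d, .c, .b, .c, .a, .e, .a, .c, .b, .c, .d, .a, .c, .b, .c, .d, .a, .c]) (lf [.e, .b, .e, .c, .e, .b, .a, .b, .e, .c, .e, .b, .e, .c, .e, .b, .e, .c, .e, .a, .e, .c, .e, .b, .e, .c]))) (nd 342 (nd 341 (lf [.b, .d, .c, .d, .b, .a, .b, .d, .c, .d, .b, .d, .c, .d, .b, .d, .c, .d, .a, .d, .c, .d, .b, .d, .c, .d]) (lf [.b, .c, .a, .d, .c, .b, .c, .a, .d, .c, .b, .c, .a, .a, .a, .c, .b, .c, .d, .a, .c,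 .b, .c, .d, .a, .c, .b, .c, .d, .a, .d, .c])) (nd 343 (lf [.c, .b, .c, .d, .a, .c, .b, .c, .d, .a, .c, .b, .c, .d, .b, .d, .c, .b, .c, .a, .d, .c, .b, .c, .a, .d, .c, .b, .c, .a, .b, .a]) (lf [.d, .a, .c, .b, .c, .d, .a, .c, .b, .c, .d, .a, .d, .c, .b, .c, .a, .d, .c, .b, .c, .a, .d, .c, .b, .c, .a, .a, .a, .c, .b, .c])))) (nd 348 (nd 346 (nd 345 (lf [.a, .c, .a, .d, .a, .c, .a, .c, .a, .c, .a, .c, .d, .c, .a, .c, .a, .c]) (lf [.e, .c, .e, .b, .e, .c, .e, .c, .e, .c, .e, .b, .e, .c, .e, .b, .e, .c, .e, .b, .c, .b, .e, .c, .e, .b])) (nd 347 (lf [.e, .b, .e, .c, .e, .e, .e, .c, .e, .b, .e, .c, .e, .b, .e, .c, .e, .b, .e, .b, .e, .c, .e, .b, .e, .c]) (lf [.d, .c, .d, .b, .c, .b, .d, .c, .d, .b, .d, .c, .d, .b, .d, .c, .d, .c, .d, .c, .d, .b, .d, .c, .d, .b]))) (nd 350 (nd 349 (lf [.e, .c, .a, .c, .e, .c, .e, .c, .e, .a, .e, .c,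 .e, .c]) (lf [.e, .b, .c, .b, .e, .c, .e, .b, .e, .c, .e, .b, .e, .c, .e, .c, .e, .c, .e, .b, .e, .c, .e, .b, .e, .c])) (nd 351 (lf [.a, .c, .a, .c, .a, .c, .a, .c, .b, .c, .a, .c, .a, .c, .a, .c, .a, .b]) (lf [.a, .c, .a, .c, .a, .e, .a, .c, .a, .c, .a, .c, .a, .c, .e, .c, .a, .c])))))) (nd 368 (nd 360 (nd 356 (nd 354 (nd 353 (lf [.e, .a, .c, .e, .a, .c, .e, .e, .e, .c, .a, .e, .c, .a, .e, .c, .a, .e, .a, .c]) (lf [.e, .a, .c, .e, .e, .e, .c, .a, .e, .c, .a, .e, .c, .a, .e, .a, .c, .e, .a, .c])) (nd 355 (lf [.d, .c, .d, .c, .e, .c, .d, .c, .d, .c, .d, .e, .d, .c]) (lf [.b, .d, .c, .d, .b, .d, .c, .d, .b, .d, .c, .d, .c, .d, .c, .d, .b, .d, .c, .d, .b, .d, .c, .d, .b, .c]))) (nd 358 (nd 357 (lf [.c, .b, .c, .a, .a, .a, .c, .b, .c, .d, .a, .c, .b, .c, .d, .a, .c, .b, .c, .d, .a, .d, .c, .b, .c, .a, .d, .c, .b, .c, .a, .d]) (lf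 [.c, .d, .c, .e, .c, .d, .c, .d, .c, .d, .e, .d, .c, .d])) (nd 359 (lf [.d, .c, .b, .c, .a, .d, .c, .b, .c, .a, .d, .c, .b, .c, .a, .a, .a, .c, .b, .c, .d, .a, .c, .b, .c, .d, .a, .c, .b, .c, .d, .a]) (lf [.b, .c, .a, .d, .c, .b, .c, .a, .d, .c, .b, .c, .a, .b, .a, .c, .b, .c, .d, .a, .c, .b, .c, .d, .a, .c, .b, .c, .d, .b, .d, .c])))) (nd 364 (nd 362 (nd 361 (lf [.c, .e, .c, .e, .c, .b, .c, .e, .c, .e, .c, .e, .b, .e]) (lf [.c, .a, .e, .c, .a, .e, .c, .a, .b, .a, .c, .e, .a, .c, .e, .a, .c, .e, .b, .e])) (nd 363 (lf [.c, .e, .a, .c, .e, .c, .e, .c, .a, .e, .c, .a, .e, .c, .a, .c, .a, .c, .e, .a]) (lf [.c, .e, .c, .a, .c, .a, .c, .a, .c, .a, .e, .a, .c, .a, .c, .a, .c, .a]))) (nd 366 (nd 365 (lf [.c, .e, .b, .e, .c, .e, .b, .c, .b, .e, .c, .e, .b, .e, .c, .e, .b, .e, .c, .e, .c, .e, .c, .e, .b, .e]) (lf [.d, .c, .d, .b, .d, .c,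 .d, .e, .d, .c, .d, .b, .d, .c, .d, .b, .d, .c, .d, .b, .e, .b, .d, .c, .d, .b])) (nd 367 (lf [.d, .c, .d, .b, .a, .b, .d, .c, .d, .b, .d, .c, .d, .b, .d, .c, .d, .a, .d, .c, .d, .b, .d, .c, .d, .b]) (lf [.d, .b, .d, .c, .d, .c, .d, .c, .d, .b, .d, .c, .d, .b, .d, .c, .d, .b, .c, .b, .d, .c, .d, .b, .d, .c]))))) (nd 376 (nd 372 (nd 370 (nd 369 (lf [.a, .d, .a, .c, .e, .a, .c, .e, .a, .c, .e, .d, .e, .c, .a, .e, .c, .a, .e, .c]) (lf [.a, .d, .a, .e, .a, .d, .a, .d, .e, .d])) (nd 371 (lf [.e, .c, .e, .c, .a, .e, .c, .a, .e, .c, .a, .c, .a, .c, .e, .a, .c, .e, .a, .c]) (lf [.b, .c, .d, .a, .c, .b, .c, .d, .a, .c, .b, .c, .d, .e, .d, .c, .b, .c, .a, .d, .c, .b, .c, .a, .d, .c, .b, .c, .a, .e, .a, .c]))) (nd 374 (nd 373 (lf [.a, .c, .d, .c, .a, .c, .a, .c, .a, .c, .a, .d, .a, .c, .a, .c, .a, .c]) (lf [.c, .a, .e, .c, .a, .e, .a, .c,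 .e, .a, .c, .e, .a, .c, .e, .e, .e, .c, .a, .e])) (nd 375 (lf [.d, .a, .c, .e, .a, .c, .e, .a, .c, .e, .d, .e, .c, .a, .e, .c, .a, .e, .c, .a]) (lf [.c, .a, .d, .c, .b, .c, .a, .b, .a, .c, .b, .c, .d, .a, .c, .b, .c, .d, .a, .c, .b, .c, .d, .b, .d, .c, .b, .c, .a, .d, .c, .b])))) (nd 380 (nd 378 (nd 377 (lf [.e, .c, .e, .c, .e, .c, .d, .c, .e, .c, .e, .c, .e, .d]) (lf [.e, .a, .c, .e, .a, .c, .e, .a, .c, .e, .e, .e, .c, .a, .e, .c, .a, .e, .c, .a])) (nd 379 (lf [.c, .e, .b, .e, .c, .e, .b, .e, .c, .e, .c, .e, .c, .e, .b, .e, .c, .e, .b, .e, .c, .e, .b, .c, .b, .e]) (lf [.e, .c, .b, .c, .e, .c, .e, .c, .e, .b, .e, .c, .e, .c]))) (nd 382 (nd 381 (lf [.d, .b, .d, .c, .d, .b, .c, .b, .d, .c, .d, .b, .d, .c, .d, .b, .d, .c, .d, .c, .d, .c, .d, .b, .d, .c]) (lf [.c, .d, .b, .d, .c, .d, .b, .e, .b, .d, .c, .d, .b, .d, .c, .d, .b, .d,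 .c, .d, .e, .d, .c, .d, .b, .d])) (nd 383 (lf [.e, .d, .e, .c, .e, .c, .e, .c, .d, .c, .e, .c, .e, .c]) (lf [.c, .d, .c, .d, .c, .e, .c, .d, .c, .d, .c, .d, .e, .d])))))))
noncomputable def tkw_circT_c6 : ℕ → List Gen := (nd 416 (nd 400 (nd 392 (nd 388 (nd 386 (nd 385 (lf [.c, .e, .a, .c, .e, .a, .c, .e, .a, .e, .c, .a, .e, .c, .a, .e, .c, .a, .a, .a]) (lf [.c, .a, .c, .a, .d, .a, .c, .a, .c, .a, .c, .a, .c, .d, .c, .a, .c, .a])) (nd 387 (lf [.d, .a, .c, .b, .c, .d, .a, .c, .b, .c, .d, .b, .d, .c, .b, .c, .a, .d, .c, .b, .c, .a, .d, .c, .b, .c, .a, .b, .a, .c, .b, .c]) (lf [.a, .d, .c, .b, .c, .a, .b, .a, .c, .b, .c, .d, .a, .c, .b, .c, .d, .a, .c, .b, .c, .d, .b, .d, .c, .b, .c, .a, .d, .c, .b, .c]))) (nd 390 (nd 389 (lf [.b, .c, .d, .a, .d, .c, .b, .c, .a, .d, .c, .b, .c, .a, .d, .c, .b, .c, .a, .a, .a, .c, .b, .c, .d, .a,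 .c, .b, .c, .d, .a, .c]) (lf [.c, .d, .b, .d, .c, .d, .b, .d, .c, .d, .b, .d, .b, .d, .c, .d, .b, .d, .c, .d, .b, .d, .c, .d, .d, .d])) (nd 391 (lf [.d, .b, .d, .c, .d, .b, .a, .b, .d, .c, .d, .b, .d, .c, .d, .b, .d, .c, .d, .a, .d, .c, .d, .b, .d, .c]) (lf [.e, .c, .e, .b, .e, .c, .e, .b, .c, .b, .e, .c, .e, .b, .e, .c, .e, .b, .e, .c, .e, .c, .e, .c, .e, .b])))) (nd 396 (nd 394 (nd 393 (lf [.d, .c, .a, .c, .a, .c, .a, .c, .a, .d, .a, .c, .a, .c, .a, .c, .a, .c]) (lf [.c, .d, .a, .c, .b, .c, .d, .e, .d, .c, .b, .c, .a, .d, .c, .b, .c, .a, .d, .c, .b, .c, .a, .e, .a, .c, .b, .c, .d, .a, .c, .b])) (nd 395 (lf [.c, .e, .b, .e, .c, .e, .b, .a, .b, .e, .c, .e, .b, .e, .c, .e, .b, .e, .c, .e, .a, .e, .c, .e, .b, .e]) (lf [.b, .e, .c, .e, .b, .e, .c, .e, .e, .e, .c, .e, .b, .e, .c, .e, .b, .e, .c, .e, .b, .e, .b, .e, .c, .e]))) (nd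 398 (nd 397 (lf [.c, .b, .c, .a, .d, .c, .b, .c, .a, .e, .a, .c, .b, .c, .d, .a, .c, .b, .c, .d, .a, .c, .b, .c, .d, .e, .d, .c, .b, .c, .a, .d]) (lf [.c, .e, .a, .c, .e, .a, .c, .e, .e, .e, .c, .a, .e, .c, .a, .e, .c, .a, .e, .a])) (nd 399 (lf [.a, .e, .a, .c, .a, .c, .a, .c, .a, .c, .e, .c, .a, .c, .a, .c, .a, .c]) (lf [.a, .d, .a, .c, .a, .c, .a, .c, .a, .c, .d, .c, .a, .c, .a, .c, .a, .c]))))) (nd 408 (nd 404 (nd 402 (nd 401 (lf [.e, .c, .e, .b, .e, .c, .e, .b, .e, .c, .e, .a, .e, .c, .e, .b, .e, .c, .e, .b, .e, .c, .e, .b, .a, .b]) (lf [.a, .c, .a, .c, .a, .c, .a, .e, .a, .c, .a, .c, .a, .c, .a, .c, .e, .c])) (nd 403 (lf [.c, .e, .c, .e, .c, .e, .b, .e, .c, .e, .b, .e, .c, .e, .b, .c, .b, .e, .c, .e, .b, .e, .c, .e, .b, .e]) (lf [.c, .a, .e, .c, .a, .e, .c, .a, .c, .a, .c, .e, .a, .c, .e, .a, .c, .e, .c, .e]))) (nd 406 (nd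 405 (lf [.c, .a, .e, .c, .a, .a, .a, .c, .e, .a, .c, .e, .a, .c, .e, .a, .e, .c, .a, .e]) (lf [.e, .c, .e, .b, .a, .b, .e, .c, .e, .b, .e, .c, .e, .b, .e, .c, .e, .a, .e, .c, .e, .b, .e, .c, .e, .b])) (nd 407 (lf [.a, .b, .a, .c, .b, .c, .d, .a, .c, .b, .c, .d, .a, .c, .b, .c, .d, .b, .d, .c, .b, .c, .a, .d, .c, .b, .c, .a, .d, .c, .b, .c]) (lf [.a, .c, .a, .c, .b, .c, .d, .a, .c, .b, .c, .d, .a, .c, .b, .c, .d, .c, .d, .c, .b, .c, .a, .d, .c, .b, .c, .a, .d, .c, .b, .c])))) (nd 412 (nd 410 (nd 409 (lf [.b, .e, .c, .e, .b, .e, .b, .e, .c, .e, .b, .e, .c, .e, .b, .e, .c, .e, .e, .e, .c, .e, .b, .e, .c, .e]) (lf [.a, .c, .e, .d, .e, .c, .a, .e, .c, .a, .e, .c, .a, .d, .a, .c, .e, .a, .c, .e])) (nd 411 (lf [.a, .c, .a, .c, .a, .c, .a, .c, .e, .c, .a, .c, .a, .c, .a, .c, .a, .e]) (lf [.b, .e, .c, .e, .b, .a, .b, .e, .c, .e, .b, .e,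 .c, .e, .b, .e, .c, .e, .a, .e, .c, .e, .b, .e, .c, .e]))) (nd 414 (nd 413 (lf [.a, .e, .a, .c, .e, .a, .c, .e, .a, .c, .e, .e, .e, .c, .a, .e, .c, .a, .e, .c]) (lf [.a, .c, .a, .c, .a, .c, .a, .b, .a, .c, .a, .c, .a, .c, .a, .c, .b, .c])) (nd 415 (lf [.c, .a, .c, .a, .c, .a, .d, .a, .c, .a, .c, .a, .c, .a, .c, .d, .c, .a]) (lf [.e, .c, .e, .b, .c, .b, .e, .c, .e, .b, .e, .c, .e, .b, .e, .c, .e, .c, .e, .c, .e, .b, .e, .c, .e, .b])))))) (nd 432 (nd 424 (nd 420 (nd 418 (nd 417 (lf [.d, .b, .d, .c, .d, .b, .d, .c, .d, .e, .d, .c, .d, .b, .d, .c, .d, .b, .d, .c, .d, .b, .e, .b, .d, .c]) (lf [.e, .b, .e, .c, .e, .b, .e, .c, .e, .c, .e, .c, .e, .b, .e, .c, .e, .b, .e, .c, .e, .b, .c, .b, .e, .c])) (nd 419 (lf [.c, .d, .b, .d, .c, .d, .b, .d, .c, .d, .b, .a, .b, .d, .c, .d, .b, .d, .c, .d, .b, .d, .c, .d, .a, .d]) (lf [.c, .b, .c,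 .e, .c, .e, .c, .e, .b, .e, .c, .e, .c, .e]))) (nd 422 (nd 421 (lf [.d, .b, .c, .b, .d, .c, .d, .b, .d, .c, .d, .b, .d, .c, .d, .c, .d, .c, .d, .b, .d, .c, .d, .b, .d, .c]) (lf [.c, .e, .c, .e, .c, .a, .c, .e, .c, .e, .c, .e, .a, .e])) (nd 423 (lf [.d, .c, .d, .c, .d, .b, .d, .c, .d, .b, .d, .c, .d, .b, .c, .b, .d, .c, .d, .b, .d, .c, .d, .b, .d, .c]) (lf [.b, .a, .c, .b, .c, .d, .a, .c, .b, .c, .d, .a, .c, .b, .c, .d, .b, .d, .c, .b, .c, .a, .d, .c, .b, .c, .a, .d, .c, .b, .c, .a])))) (nd 428 (nd 426 (nd 425 (lf [.a, .c, .a, .c, .a, .c, .a, .d, .a, .c, .a, .c, .a, .c, .a, .c, .d, .c]) (lf [.d, .e, .c, .a, .e, .c, .a, .e, .c, .a, .d, .a, .c, .e, .a, .c, .e, .a, .c, .e])) (nd 427 (lf [.e, .c, .a, .e, .c, .a, .e, .a, .c, .e, .a, .c, .e, .a, .c, .e, .e, .e, .c, .a]) (lf [.a, .a, .a, .c, .e, .a, .c, .e, .a, .c, .e, .a, .e, .c, .a,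 .e, .c, .a, .e, .c]))) (nd 430 (nd 429 (lf [.d, .b, .d, .c, .d, .e, .d, .c, .d, .b, .d, .c, .d, .b, .d, .c, .d, .b, .e, .b, .d, .c, .d, .b, .d, .c]) (lf [.e, .c, .e, .b, .d, .b, .e, .c, .e, .b, .e, .c, .e, .b, .e, .c, .e, .d, .e, .c, .e, .b, .e, .c, .e, .b])) (nd 431 (lf [.a, .d, .c, .b, .c, .a, .d, .c, .b, .c, .a, .b, .a, .c, .b, .c, .d, .a, .c, .b, .c, .d, .a, .c, .b, .c, .d, .b, .d, .c, .b, .c]) (lf [.d, .c, .b, .c, .a, .d, .a, .c, .b, .c, .d, .a, .c, .b, .c, .d, .a, .c, .b, .c, .d, .d, .d, .c, .b, .c, .a, .d, .c, .b, .c, .a]))))) (nd 440 (nd 436 (nd 434 (nd 433 (lf [.a, .c, .b, .c, .d, .d, .d, .c, .b, .c, .a, .d, .c, .b, .c, .a, .d, .c, .b, .c, .a, .d, .a, .c, .b, .c, .d, .a, .c, .b, .c, .d]) (lf [.b, .d, .c, .d, .b, .d, .c, .d, .b, .a, .b, .d, .c, .d, .b, .d, .c, .d, .b, .d, .c, .d, .a, .d, .c, .d])) (nd 435 (lf [.c, .e,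 .b, .e, .c, .e, .b, .d, .b, .e, .c, .e, .b, .e, .c, .e, .b, .e, .c, .e, .d, .e, .c, .e, .b, .e]) (lf [.c, .b, .c, .d, .a, .c, .b, .c, .d, .a, .c, .b, .c, .d, .a, .d, .c, .b, .c, .a, .d, .c, .b, .c, .a, .d, .c, .b, .c, .a, .a, .a]))) (nd 438 (nd 437 (lf [.e, .c, .e, .b, .e, .c, .e, .b, .d, .b, .e, .c, .e, .b, .e, .c, .e, .b, .e, .c, .e, .d, .e, .c, .e, .b]) (lf [.c, .d, .b, .d, .c, .d, .c, .d, .c, .d, .b, .d, .c, .d, .b, .d, .c, .d, .b, .c, .b, .d, .c, .d, .b, .d])) (nd 439 (lf [.c, .a, .d, .c, .b, .c, .a, .c, .a, .c, .b, .c, .d, .a, .c, .b, .c, .d, .a, .c, .b, .c, .d, .c, .d, .c, .b, .c, .a, .d, .c, .b]) (lf [.c, .a, .d, .c, .b, .c, .a, .d, .c, .b, .c, .a, .e, .a, .c, .b, .c, .d, .a, .c, .b, .c, .d, .a, .c, .b, .c, .d, .e, .d, .c, .b])))) (nd 444 (nd 442 (nd 441 (lf [.c, .e, .b, .e, .c, .e, .e, .e, .c, .e, .b, .e, .c, .e, .b,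 .e, .c, .e, .b, .e, .b, .e, .c, .e, .b, .e]) (lf [.c, .a, .d, .a, .c, .e, .a, .c, .e, .a, .c, .e, .d, .e, .c, .a, .e, .c, .a, .e])) (nd 443 (lf [.b, .e, .c, .e, .c, .e, .c, .e, .b, .e, .c, .e, .b, .e, .c, .e, .b, .c, .b, .e, .c, .e, .b, .e, .c, .e]) (lf [.e, .d, .c, .b, .c, .a, .d, .c, .b, .c, .a, .d, .c, .b, .c, .a, .e, .a, .c, .b, .c, .d, .a, .c, .b, .c, .d, .a, .c, .b, .c, .d]))) (nd 446 (nd 445 (lf [.c, .d, .e, .d, .c, .b, .c, .a, .d, .c, .b, .c, .a, .d, .c, .b, .c, .a, .e, .a, .c, .b, .c, .d, .a, .c, .b, .c, .d, .a, .c, .b]) (lf [.c, .a, .e, .a, .c, .b, .c, .d, .a, .c, .b, .c, .d, .a, .c, .b, .c, .d, .e, .d, .c, .b, .c, .a, .d, .c, .b, .c, .a, .d, .c, .b])) (nd 447 (lf [.a, .e, .c, .a, .e, .a, .c, .e, .a, .c, .e, .a, .c, .e, .e, .e, .c, .a, .e, .c]) (lf [.d, .c, .d, .b, .d, .c, .d, .d, .d, .c, .d, .b, .d, .c, .d, .b, .d,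 .c, .d, .b, .d, .b, .d, .c, .d, .b])))))))
noncomputable def tkw_circT_c7 : ℕ → List Gen := (nd 480 (nd 464 (nd 456 (nd 452 (nd 450 (nd 449 (lf [.a, .d, .c, .d, .c, .d, .c, .a, .c, .d, .c, .d, .c, .d]) (lf [.d, .b, .d, .c, .d, .b, .d, .c, .d, .b, .a, .b, .d, .c, .d, .b, .d, .c, .d, .b, .d, .c, .d, .a, .d, .c])) (nd 451 (lf [.b, .c, .d, .a, .c, .b, .c, .d, .d, .d, .c, .b, .c, .a, .d, .c, .b, .c, .a, .d, .c, .b, .c, .a, .d, .a, .c, .b, .c, .d, .a, .c]) (lf [.c, .a, .d, .c, .b, .c, .a, .d, .c, .b, .c, .a, .a, .a, .c, .b, .c, .d, .a, .c, .b, .c, .d, .a, .c, .b, .c, .d, .a, .d, .c, .b]))) (nd 454 (nd 453 (lf [.d, .c, .d, .b, .d, .c, .d, .b, .a, .b, .d, .c, .d, .b, .d, .c, .d, .b, .d, .c, .d, .a, .d, .c, .d, .b]) (lf [.b, .c, .a, .d, .c, .b, .c, .a, .b, .a, .c, .b, .c, .d, .a, .c, .b, .c, .d, .a, .c, .b, .c, .d, .b, .d, .c, .b, .c,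 .a, .d, .c])) (nd 455 (lf [.c, .b, .c, .d, .e, .d, .c, .b, .c, .a, .d, .c, .b, .c, .a, .d, .c, .b, .c, .a, .e, .a, .c, .b, .c, .d, .a, .c, .b, .c, .d, .a]) (lf [.d, .c, .d, .b, .d, .c, .d, .b, .e, .b, .d, .c, .d, .b, .d, .c, .d, .b, .d, .c, .d, .e, .d, .c, .d, .b])))) (nd 460 (nd 458 (nd 457 (lf [.c, .a, .d, .c, .b, .c, .a, .a, .a, .c, .b, .c, .d, .a, .c, .b, .c, .d, .a, .c, .b, .c, .d, .a, .d, .c, .b, .c, .a, .d, .c, .b]) (lf [.e, .c, .e, .a, .e, .c, .e, .b, .e, .c, .e, .b, .e, .c, .e, .b, .a, .b, .e, .c, .e, .b, .e, .c, .e, .b])) (nd 459 (lf [.c, .a, .c, .a, .c, .a, .c, .a, .e, .a, .c, .a, .c, .a, .c, .a, .c, .e]) (lf [.c, .e, .a, .e, .c, .e, .b, .e, .c, .e, .b, .e, .c, .e, .b, .a, .b, .e, .c, .e, .b, .e, .c, .e, .b, .e]))) (nd 462 (nd 461 (lf [.c, .e, .b, .a, .b, .e, .c, .e, .b, .e, .c, .e, .b, .e, .c, .e, .a, .e, .c, .e,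 .b, .e, .c, .e, .b, .e]) (lf [.e, .b, .e, .c, .e, .b, .e, .c, .e, .d, .e, .c, .e, .b, .e, .c, .e, .b, .e, .c, .e, .b, .d, .b, .e, .c])) (nd 463 (lf [.c, .b, .c, .d, .b, .d, .c, .b, .c, .a, .d, .c, .b, .c, .a, .d, .c, .b, .c, .a, .b, .a, .c, .b, .c, .d, .a, .c, .b, .c, .d, .a]) (lf [.a, .d, .c, .b, .c, .a, .d, .c, .b, .c, .a, .d, .a, .c, .b, .c, .d, .a, .c, .b, .c, .d, .a, .c, .b, .c, .d, .d, .d, .c, .b, .c]))))) (nd 472 (nd 468 (nd 466 (nd 465 (lf [.c, .b, .c, .a, .c, .a, .c, .a, .c, .a, .b, .a, .c, .a, .c, .a, .c, .a]) (lf [.b, .e, .c, .e, .a, .e, .c, .e, .b, .e, .c, .e, .b, .e, .c, .e, .b, .a, .b, .e, .c, .e, .b, .e, .c, .e])) (nd 467 (lf [.c, .a, .c, .d, .c, .a, .c, .a, .c, .a, .c, .a, .d, .a, .c, .a, .c, .a]) (lf [.e, .c, .e, .c, .a, .c, .e, .c, .e, .c, .e, .a, .e, .c]))) (nd 470 (nd 469 (lf [.c, .a, .c, .e, .c, .e, .c, .e,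 .a, .e, .c, .e, .c, .e]) (lf [.d, .a, .c, .b, .c, .d, .e, .d, .c, .b, .c, .a, .d, .c, .b, .c, .a, .d, .c, .b, .c, .a, .e, .a, .c, .b, .c, .d, .a, .c, .b, .c])) (nd 471 (lf [.b, .d, .c, .d, .b, .d, .c, .d, .b, .d, .c, .d, .e, .d, .c, .d, .b, .d, .c, .d, .b, .d, .c, .d, .b, .e]) (lf [.c, .b, .c, .d, .a, .c, .b, .c, .d, .a, .c, .b, .c, .d, .e, .d, .c, .b, .c, .a, .d, .c, .b, .c, .a, .d, .c, .b, .c, .a, .e, .a])))) (nd 476 (nd 474 (nd 473 (lf [.b, .e, .c, .e, .b, .e, .c, .e, .b, .e, .c, .e, .a, .e, .c, .e, .b, .e, .c, .e, .b, .e, .c, .e, .b, .a]) (lf [.c, .d, .a, .d, .c, .d, .b, .d, .c, .d, .b, .d, .c, .d, .b, .a, .b, .d, .c, .d, .b, .d, .c, .d, .b, .d])) (nd 475 (lf [.d, .c, .d, .b, .d, .c, .d, .b, .d, .c, .d, .e, .d, .c, .d, .b, .d, .c, .d, .b, .d, .c, .d, .b, .e, .b]) (lf [.c, .e, .b, .e, .c, .e, .b, .e, .c, .e, .b, .e, .b, .e,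 .c, .e, .b, .e, .c, .e, .b, .e, .c, .e, .e, .e]))) (nd 478 (nd 477 (lf [.c, .d, .c, .e, .c, .e, .c, .e, .d, .e, .c, .e, .c, .e]) (lf [.d, .c, .d, .b, .d, .c, .d, .b, .d, .b, .d, .c, .d, .b, .d, .c, .d, .b, .d, .c, .d, .d, .d, .c, .d, .b])) (nd 479 (lf [.b, .d, .a, .d, .a, .b, .a, .d, .a, .d]) (lf [.c, .a, .c, .e, .a, .c, .e, .a, .c, .e, .c, .e, .c, .a, .e, .c, .a, .e, .c, .a])))))) (nd 496 (nd 488 (nd 484 (nd 482 (nd 481 (lf [.e, .c, .a, .e, .c, .a, .e, .c, .a, .c, .a, .c, .e, .a, .c, .e, .a, .c, .e, .c]) (lf [.e, .b, .e, .c, .e, .d, .e, .c, .e, .b, .e, .c, .e, .b, .e, .c, .e, .b, .d, .b, .e, .c, .e, .b, .e, .c])) (nd 483 (lf [.a, .c, .b, .c, .d, .e, .d, .c, .b, .c, .a, .d, .c, .b, .c, .a, .d, .c, .b, .c, .a, .e, .a, .c, .b, .c, .d, .a, .c, .b, .c, .d]) (lf [.c, .b, .c, .d, .c, .d, .c, .b, .c, .a, .d, .c, .b, .c, .a, .d, .c,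 .b, .c, .a, .c, .a, .c, .b, .c, .d, .a, .c, .b, .c, .d, .a]))) (nd 486 (nd 485 (lf [.e, .b, .e, .c, .a, .e, .c, .a, .e, .c, .a, .b, .a, .c, .e, .a, .c, .e, .a, .c]) (lf [.e, .a, .e, .c, .e, .b, .e, .c, .e, .b, .e, .c, .e, .b, .a, .b, .e, .c, .e, .b, .e, .c, .e, .b, .e, .c])) (nd 487 (lf [.b, .e, .c, .e, .b, .e, .c, .e, .b, .a, .b, .e, .c, .e, .b, .e, .c, .e, .b, .e, .c, .e, .a, .e, .c, .e]) (lf [.b, .a, .c, .e, .a, .c, .e, .a, .c, .e, .b, .e, .c, .a, .e, .c, .a, .e, .c, .a])))) (nd 492 (nd 490 (nd 489 (lf [.a, .e, .a, .d, .a, .d, .e, .d, .a, .d]) (lf [.b, .c, .a, .a, .a, .c, .b, .c, .d, .a, .c, .b, .c, .d, .a, .c, .b, .c, .d, .a, .d, .c, .b, .c, .a, .d, .c, .b, .c, .a, .d, .c])) (nd 491 (lf [.e, .b, .a, .b, .e, .c, .e, .b, .e, .c, .e, .b, .e, .c, .e, .a, .e, .c, .e, .b, .e, .c, .e, .b, .e, .c]) (lf [.b, .d, .c, .d, .b, .d, .c,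 .d, .b, .d, .c, .d, .a, .d, .c, .d, .b, .d, .c, .d, .b, .d, .c, .d, .b, .a]))) (nd 494 (nd 493 (lf [.c, .a, .d, .c, .b, .c, .a, .d, .c, .b, .c, .a, .c, .a, .c, .b, .c, .d, .a, .c, .b, .c, .d, .a, .c, .b, .c, .d, .c, .d, .c, .b]) (lf [.d, .a, .d, .a, .c, .a, .d, .a, .d, .c])) (nd 495 (lf [.d, .c, .b, .c, .a, .d, .c, .b, .c, .a, .d, .c, .b, .c, .a, .b, .a, .c, .b, .c, .d, .a, .c, .b, .c, .d, .a, .c, .b, .c, .d, .b]) (lf [.b, .a, .b, .e, .c, .e, .b, .e, .c, .e, .b, .e, .c, .e, .a, .e, .c, .e, .b, .e, .c, .e, .b, .e, .c, .e]))))) (nd 504 (nd 500 (nd 498 (nd 497 (lf [.c, .a, .d, .c, .b, .c, .a, .d, .c, .b, .c, .a, .b, .a, .c, .b, .c, .d, .a, .c, .b, .c, .d, .a, .c, .b, .c, .d, .b, .d, .c, .b]) (lf [.a, .e, .c, .a, .e, .c, .a, .e, .a, .c, .e, .a, .c, .e, .a, .c, .e, .e, .e, .c])) (nd 499 (lf [.c, .b, .c, .a, .b, .a, .c, .b, .c, .d,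 .a, .c, .b, .c, .d, .a, .c, .b, .c, .d, .b, .d, .c, .b, .c, .a, .d, .c, .b, .c, .a, .d]) (lf [.d, .c, .d, .b, .e, .b, .d, .c, .d, .b, .d, .c, .d, .b, .d, .c, .d, .e, .d, .c, .d, .b, .d, .c, .d, .b]))) (nd 502 (nd 501 (lf [.b, .d, .c, .d, .c, .d, .c, .d, .b, .d, .c, .d, .b, .d, .c, .d, .b, .c, .b, .d, .c, .d, .b, .d, .c, .d]) (lf [.c, .a, .b, .a, .c, .b, .c, .d, .a, .c, .b, .c, .d, .a, .c, .b, .c, .d, .b, .d, .c, .b, .c, .a, .d, .c, .b, .c, .a, .d, .c, .b])) (nd 503 (lf [.c, .b, .c, .d, .a, .d, .c, .b, .c, .a, .d, .c, .b, .c, .a, .d, .c, .b, .c, .a, .a, .a, .c, .b, .c, .d, .a, .c, .b, .c, .d, .a]) (lf [.b, .c, .d, .a, .c, .b, .c, .d, .a, .c, .b, .c, .d, .c, .d, .c, .b, .c, .a, .d, .c, .b, .c, .a, .d, .c, .b, .c, .a, .c, .a, .c])))) (nd 508 (nd 506 (nd 505 (lf [.d, .e, .d, .c, .b, .c, .a, .d, .c, .b, .c, .a, .d, .c, .b, .c, .a,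 .e, .a, .c, .b, .c, .d, .a, .c, .b, .c, .d, .a, .c, .b, .c]) (lf [.c, .d, .a, .c, .b, .c, .d, .a, .c, .b, .c, .d, .e, .d, .c, .b, .c, .a, .d, .c, .b, .c, .a, .d, .c, .b, .c, .a, .e, .a, .c, .b])) (nd 507 (lf [.c, .e, .b, .d, .b, .e, .c, .e, .b, .e, .c, .e, .b, .e, .c, .e, .d, .e, .c, .e, .b, .e, .c, .e, .b, .e]) (lf [.b, .c, .a, .d, .c, .b, .c, .a, .e, .a, .c, .b, .c, .d, .a, .c, .b, .c, .d, .a, .c, .b, .c, .d, .e, .d, .c, .b, .c, .a, .d, .c]))) (nd 510 (nd 509 (lf [.e, .b, .e, .c, .e, .b, .e, .c, .e, .b, .a, .b, .e, .c, .e, .b, .e, .c, .e, .b, .e, .c, .e, .a, .e, .c]) (lf [.e, .c, .e, .b, .e, .c, .e, .b, .a, .b, .e, .c, .e, .b, .e, .c, .e, .b, .e, .c, .e, .a, .e, .c, .e, .b])) (nd 511 (lf [.e, .c, .d, .c, .d, .c, .d, .e, .d, .c, .d, .c, .d, .c]) (lf [.c, .b, .e, .c, .e, .b, .e, .c, .e, .b, .e, .c, .e, .c, .e, .c, .e, .b, .e,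 .c, .e, .b, .e, .c, .e, .b])))))))
noncomputable def tkw_circT_c8 : ℕ → List Gen := (nd 544 (nd 528 (nd 520 (nd 516 (nd 514 (nd 513 (lf [.b, .c, .a, .d, .c, .b, .c, .a, .d, .c, .b, .c, .a, .c, .a, .c, .b, .c, .d, .a, .c, .b, .c, .d, .a, .c, .b, .c, .d, .c, .d, .c]) (lf [.c, .e, .b, .e, .b, .e, .c, .e, .b, .e, .c, .e, .b, .e, .c, .e, .e, .e, .c, .e, .b, .e, .c, .e, .b, .e])) (nd 515 (lf [.b, .d, .c, .d, .b, .d, .c, .d, .d, .d, .c, .d, .b, .d, .c, .d, .b, .d, .c, .d, .b, .d, .b, .d, .c, .d]) (lf [.b, .c, .a, .c, .a, .c, .a, .c, .a, .b, .a, .c, .a, .c, .a, .c, .a, .c]))) (nd 518 (nd 517 (lf [.e, .b, .e, .c, .e, .b, .e, .c, .e, .b, .c, .b, .e, .c, .e, .b, .e, .c, .e, .b, .e, .c, .e, .c, .e, .c]) (lf [.a, .c, .d, .c, .d, .c, .d, .a, .d, .c, .d, .c, .d, .c])) (nd 519 (lf [.d, .c, .d, .c, .d, .c, .a, .c, .d, .c, .d, .c, .d, .a]) (lf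 [.b, .c, .a, .d, .c, .b, .c, .a, .d, .a, .c, .b, .c, .d, .a, .c, .b, .c, .d, .a, .c, .b, .c, .d, .d, .d, .c, .b, .c, .a, .d, .c])))) (nd 524 (nd 522 (nd 521 (lf [.a, .c, .e, .a, .c, .e, .a, .c, .e, .b, .e, .c, .a, .e, .c, .a, .e, .c, .a, .b]) (lf [.b, .e, .c, .e, .e, .e, .c, .e, .b, .e, .c, .e, .b, .e, .c, .e, .b, .e, .b, .e, .c, .e, .b, .e, .c, .e])) (nd 523 (lf [.d, .c, .d, .b, .d, .c, .d, .b, .c, .b, .d, .c, .d, .b, .d, .c, .d, .b, .d, .c, .d, .c, .d, .c, .d, .b]) (lf [.c, .d, .b, .a, .b, .d, .c, .d, .b, .d, .c, .d, .b, .d, .c, .d, .a, .d, .c, .d, .b, .d, .c, .d, .b, .d]))) (nd 526 (nd 525 (lf [.a, .d, .a, .c, .b, .c, .d, .a, .c, .b, .c, .d, .a, .c, .b, .c, .d, .d, .d, .c, .b, .c, .a, .d, .c, .b, .c, .a, .d, .c, .b, .c]) (lf [.c, .b, .c, .a, .d, .c, .b, .c, .a, .d, .c, .b, .c, .a, .a, .a, .c, .b, .c, .d, .a, .c, .b, .c, .d,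 .a, .c, .b, .c, .d, .a, .d])) (nd 527 (lf [.a, .b, .a, .c, .a, .c, .a, .c, .a, .c, .b, .c, .a, .c, .a, .c, .a, .c]) (lf [.c, .b, .d, .c, .d, .b, .d, .c, .d, .b, .d, .c, .d, .c, .d, .c, .d, .b, .d, .c, .d, .b, .d, .c, .d, .b]))))) (nd 536 (nd 532 (nd 530 (nd 529 (lf [.c, .e, .a, .c, .e, .a, .c, .e, .d, .e, .c, .a, .e, .c, .a, .e, .c, .a, .d, .a]) (lf [.b, .c, .a, .b, .a, .c, .b, .c, .d, .a, .c, .b, .c, .d, .a, .c, .b, .c, .d, .b, .d, .c, .b, .c, .a, .d, .c, .b, .c, .a, .d, .c])) (nd 531 (lf [.d, .a, .c, .b, .c, .d, .a, .c, .b, .c, .d, .d, .d, .c, .b, .c, .a, .d, .c, .b, .c, .a, .d, .c, .b, .c, .a, .d, .a, .c, .b, .c]) (lf [.c, .d, .a, .d, .a, .c, .a, .d, .a, .d]))) (nd 534 (nd 533 (lf [.c, .b, .c, .a, .d, .c, .b, .c, .a, .d, .c, .b, .c, .a, .d, .a, .c, .b, .c, .d, .a, .c, .b, .c, .d, .a, .c, .b, .c, .d, .d, .d]) (lf [.c, .a, .a,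 .a, .c, .e, .a, .c, .e, .a, .c, .e, .a, .e, .c, .a, .e, .c, .a, .e])) (nd 535 (lf [.b, .c, .d, .a, .c, .b, .c, .d, .a, .c, .b, .c, .d, .d, .d, .c, .b, .c, .a, .d, .c, .b, .c, .a, .d, .c, .b, .c, .a, .d, .a, .c]) (lf [.e, .d, .c, .d, .c, .d, .c, .e, .c, .d, .c, .d, .c, .d])))) (nd 540 (nd 538 (nd 537 (lf [.a, .e, .c, .e, .b, .e, .c, .e, .b, .e, .c, .e, .b, .a, .b, .e, .c, .e, .b, .e, .c, .e, .b, .e, .c, .e]) (lf [.c, .e, .b, .e, .c, .e, .b, .e, .c, .e, .b, .a, .b, .e, .c, .e, .b, .e, .c, .e, .b, .e, .c, .e, .a, .e])) (nd 539 (lf [.e, .a, .c, .a, .c, .a, .c, .a, .c, .e, .c, .a, .c, .a, .c, .a, .c, .a]) (lf [.d, .a, .c, .b, .c, .d, .a, .c, .b, .c, .d, .e, .d, .c, .b, .c, .a, .d, .c, .b, .c, .a, .d, .c, .b, .c, .a, .e, .a, .c, .b, .c]))) (nd 542 (nd 541 (lf [.b, .c, .a, .d, .a, .c, .b, .c, .d, .a, .c, .b, .c, .d, .a, .c, .b, .c,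 .d, .d, .d, .c, .b, .c, .a, .d, .c, .b, .c, .a, .d, .c]) (lf [.c, .e, .e, .e, .c, .e, .b, .e, .c, .e, .b, .e, .c, .e, .b, .e, .b, .e, .c, .e, .b, .e, .c, .e, .b, .e])) (nd 543 (lf [.b, .c, .e, .c, .e, .c, .e, .b, .e, .c, .e, .c, .e, .c]) (lf [.e, .c, .e, .c, .e, .c, .e, .b, .e, .c, .e, .b, .e, .c, .e, .b, .c, .b, .e, .c, .e, .b, .e, .c, .e, .b])))))) (nd 560 (nd 552 (nd 548 (nd 546 (nd 545 (lf [.c, .a, .c, .a, .c, .b, .c, .d, .a, .c, .b, .c, .d, .a, .c, .b, .c, .d, .c, .d, .c, .b, .c, .a, .d, .c, .b, .c, .a, .d, .c, .b]) (lf [.e, .c, .e, .c, .e, .b, .e, .c, .e, .b, .e, .c, .e, .b, .c, .b, .e, .c, .e, .b, .e, .c, .e, .b, .e, .c])) (nd 547 (lf [.e, .c, .e, .b, .e, .c, .e, .b, .e, .c, .e, .e, .e, .c, .e, .b, .e, .c, .e, .b, .e, .c, .e, .b, .e, .b]) (lf [.e, .a, .e, .c, .a, .e, .c, .a, .e, .c, .a, .a, .a, .c, .e, .a, .c, .e, .a,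 .c]))) (nd 550 (nd 549 (lf [.a, .b, .e, .c, .e, .b, .e, .c, .e, .b, .e, .c, .e, .a, .e, .c, .e, .b, .e, .c, .e, .b, .e, .c, .e, .b]) (lf [.e, .c, .e, .d, .e, .c, .e, .b, .e, .c, .e, .b, .e, .c, .e, .b, .d, .b, .e, .c, .e, .b, .e, .c, .e, .b])) (nd 551 (lf [.b, .c, .a, .d, .c, .b, .c, .a, .d, .c, .b, .c, .a, .d, .a, .c, .b, .c, .d, .a, .c, .b, .c, .d, .a, .c, .b, .c, .d, .d, .d, .c]) (lf [.d, .a, .e, .a, .d, .a, .d, .e, .d, .a])))) (nd 556 (nd 554 (nd 553 (lf [.d, .c, .d, .b, .d, .c, .d, .b, .d, .c, .d, .a, .d, .c, .d, .b, .d, .c, .d, .b, .d, .c, .d, .b, .a, .b]) (lf [.a, .c, .b, .c, .d, .a, .c, .b, .c, .d, .a, .c, .b, .c, .d, .c, .d, .c, .b, .c, .a, .d, .c, .b, .c, .a, .d, .c, .b, .c, .a, .c])) (nd 555 (lf [.c, .b, .c, .d, .a, .c, .b, .c, .d, .a, .c, .b, .c, .d, .c, .d, .c, .b, .c, .a, .d, .c, .b, .c, .a, .d, .c, .b, .c, .a,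 .c, .a]) (lf [.e, .c, .a, .e, .c, .a, .e, .c, .a, .b, .a, .c, .e, .a, .c, .e, .a, .c, .e, .b]))) (nd 558 (nd 557 (lf [.c, .a, .d, .c, .b, .c, .a, .d, .a, .c, .b, .c, .d, .a, .c, .b, .c, .d, .a, .c, .b, .c, .d, .d, .d, .c, .b, .c, .a, .d, .c, .b]) (lf [.c, .b, .c, .d, .a, .c, .b, .c, .d, .e, .d, .c, .b, .c, .a, .d, .c, .b, .c, .a, .d, .c, .b, .c, .a, .e, .a, .c, .b, .c, .d, .a])) (nd 559 (lf [.e, .c, .e, .e, .e, .c, .e, .b, .e, .c, .e, .b, .e, .c, .e, .b, .e, .b, .e, .c, .e, .b, .e, .c, .e, .b]) (lf [.e, .b, .e, .c, .e, .b, .e, .c, .e, .b, .e, .b, .e, .c, .e, .b, .e, .c, .e, .b, .e, .c, .e, .e, .e, .c]))))) (nd 568 (nd 564 (nd 562 (nd 561 (lf [.b, .c, .d, .c, .d, .c, .b, .c, .a, .d, .c, .b, .c, .a, .d, .c, .b, .c, .a, .c, .a, .c, .b, .c, .d, .a, .c, .b, .c, .d, .a, .c]) (lf [.a, .c, .b, .c, .d, .a, .c, .b, .c, .d, .a, .c, .b,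 .c, .d, .d, .d, .c, .b, .c, .a, .d, .c, .b, .c, .a, .d, .c, .b, .c, .a, .d])) (nd 563 (lf [.a, .c, .b, .c, .d, .a, .c, .b, .c, .d, .a, .c, .b, .c, .d, .b, .d, .c, .b, .c, .a, .d, .c, .b, .c, .a, .d, .c, .b, .c, .a, .b]) (lf [.d, .b, .a, .b, .d, .c, .d, .b, .d, .c, .d, .b, .d, .c, .d, .a, .d, .c, .d, .b, .d, .c, .d, .b, .d, .c]))) (nd 566 (nd 565 (lf [.b, .e, .c, .e, .b, .e, .c, .e, .b, .e, .b, .e, .c, .e, .b, .e, .c, .e, .b, .e, .c, .e, .e, .e, .c, .e]) (lf [.c, .e, .e, .e, .c, .a, .e, .c, .a, .e, .c, .a, .e, .a, .c, .e, .a, .c, .e, .a])) (nd 567 (lf [.d, .c, .b, .c, .a, .e, .a, .c, .b, .c, .d, .a, .c, .b, .c, .d, .a, .c, .b, .c, .d, .e, .d, .c, .b, .c, .a, .d, .c, .b, .c, .a]) (lf [.d, .a, .c, .a, .c, .a, .c, .a, .c, .d, .c, .a, .c, .a, .c, .a, .c, .a])))) (nd 572 (nd 570 (nd 569 (lf [.c, .b, .c, .d, .a, .c, .b, .c, .d, .a,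 .c, .b, .c, .d, .d, .d, .c, .b, .c, .a, .d, .c, .b, .c, .a, .d, .c, .b, .c, .a, .d, .a]) (lf [.a, .c, .e, .a, .c, .e, .a, .c, .e, .e, .e, .c, .a, .e, .c, .a, .e, .c, .a, .e])) (nd 571 (lf [.b, .c, .d, .b, .d, .c, .b, .c, .a, .d, .c, .b, .c, .a, .d, .c, .b, .c, .a, .b, .a, .c, .b, .c, .d, .a, .c, .b, .c, .d, .a, .c]) (lf [.c, .d, .d, .d, .c, .b, .c, .a, .d, .c, .b, .c, .a, .d, .c, .b, .c, .a, .d, .a, .c, .b, .c, .d, .a, .c, .b, .c, .d, .a, .c, .b]))) (nd 574 (nd 573 (lf [.c, .e, .c, .a, .e, .c, .a, .e, .c, .a, .c, .a, .c, .e, .a, .c, .e, .a, .c, .e]) (lf [.c, .d, .b, .d, .c, .d, .b, .d, .c, .d, .e, .d, .c, .d, .b, .d, .c, .d, .b, .d, .c, .d, .b, .e, .b, .d])) (nd 575 (lf [.a, .d, .c, .d, .b, .d, .c, .d, .b, .d, .c, .d, .b, .a, .b, .d, .c, .d, .b, .d, .c, .d, .b, .d, .c, .d]) (lf [.c, .d, .a, .c, .b, .c, .d, .a, .c, .b, .c, .d,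 .b, .d, .c, .b, .c, .a, .d, .c, .b, .c, .a, .d, .c, .b, .c, .a, .b, .a, .c, .b])))))))
noncomputable def tkw_circT_c9 : ℕ → List Gen := (nd 593 (nd 584 (nd 580 (nd 578 (nd 577 (lf [.d, .c, .d, .b, .d, .c, .d, .b, .d, .c, .d, .b, .a, .b, .d, .c, .d, .b, .d, .c, .d, .b, .d, .c, .d, .a]) (lf [.b, .a, .b, .d, .c, .d, .b, .d, .c, .d, .b, .d, .c, .d, .a, .d, .c, .d, .b, .d, .c, .d, .b, .d, .c, .d])) (nd 579 (lf [.c, .d, .a, .c, .b, .c, .d, .a, .c, .b, .c, .d, .c, .d, .c, .b, .c, .a, .d, .c, .b, .c, .a, .d, .c, .b, .c, .a, .c, .a, .c, .b]) (lf [.e, .a, .c, .b, .c, .d, .a, .c, .b, .c, .d, .a, .c, .b, .c, .d, .e, .d, .c, .b, .c, .a, .d, .c, .b, .c, .a, .d, .c, .b, .c, .a]))) (nd 582 (nd 581 (lf [.c, .a, .d, .a, .c, .b, .c, .d, .a, .c, .b, .c, .d, .a, .c, .b, .c, .d, .d, .d, .c, .b, .c, .a, .d, .c, .b, .c, .a, .d, .c, .b]) (lf [.d, .c,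 .b, .c, .a, .d, .c, .b, .c, .a, .d, .a, .c, .b, .c, .d, .a, .c, .b, .c, .d, .a, .c, .b, .c, .d, .d, .d, .c, .b, .c, .a])) (nd 583 (lf [.c, .a, .d, .c, .b, .c, .a, .d, .c, .b, .c, .a, .d, .a, .c, .b, .c, .d, .a, .c, .b, .c, .d, .a, .c, .b, .c, .d, .d, .d, .c, .b]) (lf [.c, .e, .b, .e, .c, .e, .b, .e, .c, .e, .d, .e, .c, .e, .b, .e, .c, .e, .b, .e, .c, .e, .b, .d, .b, .e])))) (nd 588 (nd 586 (nd 585 (lf [.c, .e, .a, .c, .e, .e, .e, .c, .a, .e, .c, .a, .e, .c, .a, .e, .a, .c, .e, .a]) (lf [.a, .c, .b, .c, .d, .a, .c, .b, .c, .d, .a, .c, .b, .c, .d, .e, .d, .c, .b, .c, .a, .d, .c, .b, .c, .a, .d, .c, .b, .c, .a, .e])) (nd 587 (lf [.c, .b, .c, .a, .d, .c, .b, .c, .a, .d, .c, .b, .c, .a, .c, .a, .c, .b, .c, .d, .a, .c, .b, .c, .d, .a, .c, .b, .c, .d, .c, .d]) (lf [.b, .c, .a, .d, .c, .b, .c, .a, .d, .c, .b, .c, .a, .e, .a, .c, .b,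 .c, .d, .a, .c, .b, .c, .d, .a, .c, .b, .c, .d, .e, .d, .c]))) (nd 590 (nd 589 (lf [.b, .a, .c, .a, .c, .a, .c, .a, .c, .b, .c, .a, .c, .a, .c, .a, .c, .a]) (lf [.c, .d, .c, .d, .c, .b, .c, .a, .d, .c, .b, .c, .a, .d, .c, .b, .c, .a, .c, .a, .c, .b, .c, .d, .a, .c, .b, .c, .d, .a, .c, .b])) (nd 591 (lf [.a, .c, .e, .a, .c, .e, .a, .c, .e, .d, .e, .c, .a, .e, .c, .a, .e, .c, .a, .d]) (nd 592 (lf [.b, .a, .d, .a, .d, .b, .d, .a, .d, .a]) (lf [.b, .e, .c, .a, .e, .c, .a, .e, .c, .a, .b, .a, .c, .e, .a, .c, .e, .a, .c, .e])))))) (nd 601 (nd 597 (nd 595 (nd 594 (lf [.d, .c, .d, .c, .d, .c, .d, .b, .d, .c, .d, .b, .d, .c, .d, .b, .c, .b, .d, .c, .d, .b, .d, .c, .d, .b]) (lf [.e, .c, .e, .b, .e, .c, .e, .b, .e, .c, .e, .b, .a, .b, .e, .c, .e, .b, .e, .c, .e, .b, .e, .c, .e, .a])) (nd 596 (lf [.d, .c, .e, .c, .e, .c, .e, .d, .e, .c,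 .e, .c, .e, .c]) (lf [.b, .c, .d, .d, .d, .c, .b, .c, .a, .d, .c, .b, .c, .a, .d, .c, .b, .c, .a, .d, .a, .c, .b, .c, .d, .a, .c, .b, .c, .d, .a, .c]))) (nd 599 (nd 598 (lf [.d, .c, .e, .b, .d, .c, .e, .b, .d, .c, .e, .b, .d, .c, .e, .d, .e, .c, .d, .b, .e, .c, .d, .b, .e, .c, .d, .b, .e, .c, .d, .b, .e, .c, .d, .b, .e, .c, .d, .b, .d, .b, .d, .c, .e, .b, .d, .c, .e, .b]) (lf [.c, .e, .c, .d, .b, .e, .c, .d, .b, .e, .c, .d, .b, .e, .c, .d, .b, .e, .c, .d, .b, .e, .c, .d, .b, .c, .b, .d, .c, .e, .b, .d, .c, .e, .b, .d, .c, .e, .b, .d, .c, .e, .b, .d, .c, .e, .b, .d, .c, .e])) (nd 600 (lf [.d, .b, .d, .c, .b, .c, .a, .d, .c, .b, .c, .a, .d, .c, .b, .c, .a, .b, .a, .c, .b, .c, .d, .a, .c, .b, .c, .d, .a, .c, .b, .c]) (lf [.d, .a, .e, .a, .d, .e, .d, .e, .e, .e, .d, .e])))) (nd 605 (nd 603 (nd 602 (lf [.b, .e, .c, .e, .d, .e, .c,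 .e, .b, .e, .c, .e, .b, .e, .c, .e, .b, .d, .b, .e, .c, .e, .b, .e, .c, .e]) (lf [.a, .d, .c, .b, .c, .a, .d, .c, .b, .c, .a, .d, .c, .b, .c, .a, .a, .a, .c, .b, .c, .d, .a, .c, .b, .c, .d, .a, .c, .b, .c, .d])) (nd 604 (lf [.b, .d, .c, .e, .b, .d, .c, .e, .b, .d, .c, .e, .b, .d, .c, .e, .b, .d, .c, .e, .b, .e, .c, .d, .b, .e, .c, .d, .b, .e, .c, .d, .b, .e, .c, .d, .b, .e, .c, .d, .b, .e, .c, .d, .b, .b, .b, .d, .c, .e]) (lf [.c, .a, .c, .b, .c, .d, .a, .c, .b, .c, .d, .a, .c, .b, .c, .d, .c, .d, .c, .b, .c, .a, .d, .c, .b, .c, .a, .d, .c, .b, .c, .a]))) (nd 607 (nd 606 (lf [.c, .d, .a, .c, .b, .c, .d, .d, .d, .c, .b, .c, .a, .d, .c, .b, .c, .a, .d, .c, .b, .c, .a, .d, .a, .c, .b, .c, .d, .a, .c, .b]) (lf [.d, .c, .d, .c, .d, .c, .e, .c, .d, .c, .d, .c, .d, .e])) (nd 608 (lf [.d, .c, .d, .e, .d, .c, .d, .b, .d, .c, .d, .b, .d,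 .c, .d, .b, .e, .b, .d, .c, .d, .b, .d, .c, .d, .b]) (nd 609 (lf [.b, .d, .c, .e, .b, .d, .c, .e, .b, .d, .c, .e, .b, .d, .c, .e, .c, .e, .c, .d, .b, .e, .c, .d, .b, .e, .c, .d, .b, .e, .c, .d, .b, .e, .c, .d, .b, .e, .c, .d, .b, .c, .b, .d, .c, .e, .b, .d, .c, .e]) (lf [.a, .b, .d, .c, .e, .b, .d, .c, .e, .b, .d, .c, .e, .b, .d, .c, .e, .b, .d, .c, .e, .b, .d, .c, .e, .a, .e, .c, .d, .b, .e, .c, .d, .b, .e, .c, .d, .b, .e, .c, .d, .b, .e, .c, .d, .b, .e, .c, .d, .b])))))))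
noncomputable def tkw_circT : ℕ → List Gen := (nd 320 (nd 128 (nd 64 tkw_circT_c0 tkw_circT_c1) (nd 192 tkw_circT_c2 (nd 256 tkw_circT_c3 tkw_circT_c4))) (nd 448 (nd 384 tkw_circT_c5 tkw_circT_c6) (nd 512 tkw_circT_c7 (nd 576 tkw_circT_c8 tkw_circT_c9))))
def tkw_ccert : List (ℕ × ℕ × Bool) := [(8, 1, false), (13, 2, false), (0, 0, false), (34, 3, false), (34, 5, false), (35, 5, false), (36, 5, false), (37, 3, false), (38, 2, false), (5, 1, false), (10, 2, false), (6, 1, false), (2, 0, false), (7, 1, false), (3, 0, false), (35, 2, false), (4, 0, false), (37, 9, false), (23, 4, false), (11, 2, false), (18, 3, false), (39, 13, false), (5, 0, false), (10, 1, false), (34, 6, false), (15, 3, false), (1, 0, false), (36, 3, false), (37, 4, false), (38, 1, false), (38, 10, false), (11, 1, false), (42, 3, false), (42, 2, false), (44,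 3, false), (34, 2, false), (42, 0, false), (18, 4, false), (47, 3, false), (39, 6, false), (40, 6, false), (41, 2, false), (20, 4, false), (14, 3, false), (34, 4, false), (40, 4, false), (51, 0, false), (6, 0, false), (40, 10, false), (51, 6, false), (15, 2, false), (39, 10, false), (42, 11, false), (35, 3, false), (40, 5, false), (51, 20, false), (7, 0, false), (14, 2, false), (39, 2, false), (35, 1, false), (38, 0, false), (10, 6, false), (49, 6, false), (40, 3, false), (45, 14, false), (36, 6, false), (18, 1, false), (40, 1, false), (22, 4, false), (8, 0, false), (39, 7, false), (44, 4, false), (14, 1, false), (20, 3, false), (45, 3, false), (46, 16, false), (33, 7, false), (28, 6, false), (15, 1, false), (26, 5, false), (26, 3, false), (15, 0, false), (26, 24, false), (47, 4, false), (36, 2, false), (38, 11, false), (39,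 3, false), (44, 13, false), (15, 7, false), (26, 16, false), (23, 3, false), (36, 1, false), (45, 13, false), (11, 6, false), (47, 5, false), (47, 12, false), (40, 2, false), (39, 1, false), (35, 4, false), (45, 16, false), (24, 6, false), (42, 1, false), (24, 5, false), (45, 4, false), (47, 2, false), (35, 8, false), (31, 21, false), (32, 5, false), (18, 12, false), (48, 3, false), (46, 13, false), (23, 14, false), (13, 0, false), (36, 8, false), (22, 2, false), (35, 7, false), (15, 5, false), (26, 20, false), (31, 8, false), (52, 6, false), (53, 5, false), (53, 3, false), (39, 5, false), (37, 6, false), (18, 5, false), (36, 10, false), (22, 7, false), (39, 4, false), (44, 6, false), (36, 7, false), (36, 4, false), (47, 7, false), (36, 0, false), (44, 12, false), (45, 18, false), (18, 11, false), (23, 1, false), (14, 12, false),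 (35, 0, false), (13, 1, false), (52, 4, false), (53, 18, false), (46, 0, false), (44, 16, false), (49, 4, false), (30, 8, false), (32, 25, false), (32, 9, false), (35, 9, false), (34, 7, false), (30, 7, false), (10, 8, false), (31, 4, false), (31, 25, false), (10, 7, false), (35, 10, false), (10, 3, false), (26, 22, false), (24, 7, false), (29, 6, false), (29, 20, false), (20, 2, false), (35, 6, false), (34, 8, false), (22, 1, false), (47, 15, false), (44, 5, false), (33, 21, false), (29, 3, false), (49, 7, false), (29, 10, false), (29, 26, false), (24, 4, false), (48, 16, false), (23, 11, false), (44, 10, false), (29, 22, false), (47, 8, false), (24, 2, false), (26, 14, false), (29, 8, false), (20, 14, false), (28, 4, false), (49, 5, false), (40, 0, false), (47, 13, false), (15, 10, false), (46, 6, false), (22, 3, false), (23,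 2, false), (37, 2, false), (24, 8, false), (29, 5, false), (15, 4, false), (45, 15, false), (46, 7, false), (36, 9, false), (20, 1, false), (18, 2, false), (46, 1, false), (20, 12, false), (47, 14, false), (36, 11, false), (29, 7, false), (51, 24, false), (45, 1, false), (46, 17, false), (46, 12, false), (46, 15, false), (51, 1, false), (34, 9, false), (45, 12, false), (46, 3, false), (46, 14, false), (46, 2, false), (47, 16, false), (44, 2, false), (24, 3, false), (26, 18, false), (15, 8, false), (37, 7, false), (30, 26, false), (40, 9, false), (45, 2, false), (45, 17, false), (44, 15, false), (20, 15, false), (39, 0, false), (46, 18, false), (38, 8, false), (18, 0, false), (49, 2, false), (11, 8, false), (26, 1, false), (11, 3, false), (37, 0, false), (52, 19, false), (26, 2, false), (49, 3, false), (51, 4, false), (30, 22,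 false), (13, 5, false), (30, 10, false), (31, 22, false), (14, 10, false), (15, 12, false), (24, 9, false), (15, 11, false), (30, 2, false), (31, 27, false), (31, 5, false), (31, 26, false), (33, 24, false), (30, 13, false), (23, 13, false), (20, 5, false), (35, 11, false), (15, 9, false), (11, 7, false), (13, 4, false), (37, 5, false), (37, 11, false), (42, 4, false), (30, 9, false), (14, 4, false), (28, 19, false), (26, 4, false), (14, 5, false), (22, 15, false), (14, 9, false), (44, 11, false), (14, 0, false), (52, 5, false), (33, 5, false), (33, 20, false), (38, 4, false), (37, 8, false), (51, 7, false), (40, 7, false), (51, 16, false), (33, 25, false), (24, 11, false), (31, 20, false), (15, 13, false), (30, 6, false), (20, 6, false), (48, 6, false), (45, 7, false), (20, 13, false), (15, 6, false), (31, 23, false), (51, 22,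 false), (29, 21, false), (28, 20, false), (29, 23, false), (29, 14, false), (20, 9, false), (11, 0, false), (31, 9, false), (22, 9, false), (14, 8, false), (30, 17, false), (42, 10, false), (42, 9, false), (22, 12, false), (29, 2, false), (29, 9, false), (11, 9, false), (47, 11, false), (23, 15, false), (26, 10, false), (29, 29, false), (10, 0, false), (20, 11, false), (31, 6, false), (29, 25, false), (24, 18, false), (42, 8, false), (10, 5, false), (44, 7, false), (51, 19, false), (51, 14, false), (52, 20, false), (29, 13, false), (14, 11, false), (30, 21, false), (31, 28, false), (45, 6, false), (23, 5, false), (13, 3, false), (23, 6, false), (30, 5, false), (31, 16, false), (38, 3, false), (31, 10, false), (37, 10, false), (31, 7, false), (45, 5, false), (33, 12, false), (49, 19, false), (24, 20, false), (29, 18, false), (30,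 1, false), (29, 4, false), (22, 14, false), (51, 5, false), (53, 7, false), (26, 21, false), (39, 11, false), (51, 23, false), (20, 0, false), (23, 12, false), (48, 2, false), (48, 5, false), (18, 9, false), (26, 0, false), (29, 27, false), (18, 10, false), (29, 16, false), (30, 18, false), (40, 8, false), (45, 11, false), (46, 4, false), (23, 7, false), (51, 18, false), (28, 5, false), (24, 21, false), (26, 7, false), (47, 18, false), (13, 6, false), (46, 8, false), (33, 2, false), (22, 6, false), (48, 14, false), (47, 19, false), (30, 24, false), (42, 7, false), (48, 19, false), (51, 2, false), (40, 11, false), (26, 19, false), (28, 18, false), (42, 5, false), (18, 8, false), (44, 1, false), (22, 13, false), (30, 4, false), (30, 25, false), (29, 12, false), (27, 14, false), (24, 19, false), (51, 17, false), (22, 8, false),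 (33, 8, false), (49, 18, false), (53, 4, false), (33, 22, false), (48, 1, false), (23, 16, false), (22, 16, false), (49, 1, false), (23, 10, false), (51, 10, false), (46, 11, false), (44, 14, false), (49, 21, false), (30, 30, false), (31, 30, false), (53, 20, false), (47, 6, false), (23, 0, false), (49, 20, false), (48, 18, false), (20, 10, false), (22, 11, false), (51, 21, false), (28, 3, false), (51, 3, false), (24, 14, false), (40, 12, false), (26, 23, false), (39, 8, false), (26, 11, false), (30, 31, false), (22, 10, false), (47, 9, false), (48, 13, false), (44, 18, false), (28, 7, false), (52, 21, false), (30, 20, false), (32, 26, false), (32, 10, false), (24, 16, false), (52, 18, false), (29, 1, false), (52, 17, false), (26, 6, false), (31, 24, false), (33, 19, false), (53, 6, false), (47, 17, false), (51, 8, false), (33,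 15, false), (33, 13, false), (33, 29, false), (48, 15, false), (27, 5, false), (14, 6, false), (24, 15, false), (32, 7, false), (29, 19, false), (24, 17, false), (30, 23, false), (33, 11, false), (28, 17, false), (29, 24, false), (49, 9, false), (23, 9, false), (49, 10, false), (49, 22, false), (52, 3, false), (30, 11, false), (32, 20, false), (20, 7, false), (49, 8, false), (22, 5, false), (39, 9, false), (39, 12, false), (33, 9, false), (28, 0, false), (33, 1, false), (49, 0, false), (24, 10, false), (28, 1, false), (53, 14, false), (42, 12, false), (27, 17, false), (10, 4, false), (46, 19, false), (46, 10, false), (52, 7, false), (33, 10, false), (31, 11, false), (45, 8, false), (49, 11, false), (49, 16, false), (45, 19, false), (13, 8, false), (29, 28, false), (49, 23, false), (24, 0, false), (31, 19, false), (11, 5, false),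 (30, 16, false), (49, 24, false), (30, 19, false), (48, 12, false), (30, 27, false), (28, 21, false), (26, 8, false), (30, 29, false), (29, 11, false), (31, 2, false), (33, 14, false), (33, 3, false), (52, 22, false), (33, 23, false), (49, 15, false), (49, 17, false), (18, 13, false), (51, 25, false), (31, 18, false), (53, 22, false), (27, 4, false), (20, 8, false), (51, 15, false), (14, 13, false), (14, 7, false), (32, 23, false), (45, 0, false), (53, 8, false), (26, 17, false), (24, 22, false), (32, 30, false), (29, 17, false), (20, 16, false), (26, 25, false), (47, 1, false), (30, 28, false), (32, 4, false), (11, 4, false), (32, 17, false), (44, 17, false), (32, 2, false), (18, 6, false), (49, 12, false), (49, 14, false), (23, 17, false), (33, 4, false), (32, 28, false), (53, 10, false), (40, 13, false), (51, 9, false), (31,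 29, false), (51, 11, false), (53, 1, false), (44, 8, false), (49, 25, false), (52, 9, false), (32, 18, false), (13, 7, false), (24, 1, false), (31, 0, false), (31, 1, false), (45, 10, false), (32, 24, false), (33, 6, false), (53, 9, false), (53, 15, false), (31, 12, false), (32, 0, false), (30, 0, false), (24, 23, false), (53, 16, false), (48, 7, false), (33, 26, false), (22, 17, false), (32, 1, false), (48, 0, false), (30, 12, false), (32, 13, false), (46, 9, false), (28, 2, false), (24, 12, false), (30, 3, false), (24, 13, false), (24, 24, false), (31, 3, false), (33, 31, false), (32, 29, false), (32, 21, false), (32, 19, false), (52, 2, false), (48, 4, false), (33, 0, false), (31, 17, false), (33, 18, false), (20, 17, false), (31, 13, false), (47, 0, false), (10, 9, false), (45, 9, false), (26, 9, false), (49, 13, false),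 (42, 13, false), (32, 12, false), (57, 9, false), (56, 24, false), (30, 14, false), (38, 9, false), (52, 8, false), (29, 15, false), (55, 4, false), (31, 31, false), (32, 8, false), (18, 7, false), (28, 9, false), (56, 8, false), (54, 49, false)]
noncomputable def tkw_hc1T_c0 : ℕ → List Gen := (nd 2 (nd 1 (lf [.a]) (lf [.b])) (nd 3 (lf [.c]) (lf [.d])))
noncomputable def tkw_hc1T : ℕ → List Gen := tkw_hc1T_c0
noncomputable def tkw_hc2T_c0 : ℕ → List Gen := (nd 2 (nd 1 (lf []) (lf [])) (nd 3 (lf []) (lf [])))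
noncomputable def tkw_hc2T : ℕ → List Gen := tkw_hc2T_c0

noncomputable def tkw_rd : RData Gen := ⟨wrapRow 63926 tkw_rrowT, 63926, 200, kw_gi, kw_gof, kw_gens, circTab 610 tkw_circT, circTab 4 tkw_hc1T, circTab 4 tkw_hc2T, 8⟩
noncomputable def tkw_rf (p : ℕ) : Bool := tkw_rd.chk p
def tkw_rsw : List (List Gen) := [[.a], [.b], [.c], [.d]]

end Cfsg.Agent.H41.J2P
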